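import Mathlib
import Cfsg.Prelude.Def_Characters
import Cfsg.Agent.Lead.CharConj2

namespace Cfsg.Agent.Lead

open scoped ComplexConjugate

universe u v

/-- summing centralizer orders over the elements satisfying a class-invariant predicate counts
the classes satisfying it, times `|G|` -/
theorem sum_centralizer_card_of_class_pred {G : Type u} [Group G] [Fintype G] (P : G → Prop)
    [DecidablePred P] (hP : ∀ g h, IsConj g h → (P g ↔ P h)) :
    ∑ g : G, (if P g then (Nat.card (Subgroup.centralizer ({g} : Set G)) : ℂ) else 0)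
      = (Nat.card G : ℂ) * (Nat.card {c : ConjClasses G // ∀ g, ConjClasses.mk g = c → P g} : ℂ) := by
  classical
  have hG : (Nat.card G : ℂ) ≠ 0 := by exact_mod_cast Nat.card_pos.ne'
  rw [← Finset.sum_fiberwise (Finset.univ) (ConjClasses.mk : G → ConjClasses G)]
  have hfib : ∀ c : ConjClasses G,
      ∑ g ∈ Finset.univ.filter (fun g => ConjClasses.mk g = c),
        (if P g then (Nat.card (Subgroup.centralizer ({g} : Set G)) : ℂ) else 0)
      = if (∀ g, ConjClasses.mk g = c → P g) then (Nat.card G : ℂ) else 0 := by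
    intro c
    obtain ⟨x, rfl⟩ := ConjClasses.mk_surjective c
    have hfilter : ∀ g : G, (Finset.univ.filter (fun y => ConjClasses.mk y = ConjClasses.mk g))
        = Finset.univ.filter (fun y => IsConj g y) := by
      intro g
      ext y
      simp only [Finset.mem_filter, Finset.mem_univ, true_and]
      rw [ConjClasses.mk_eq_mk_iff_isConj]
      exact isConj_comm
    have hall : (∀ g, ConjClasses.mk g = ConjClasses.mk x → P g) ↔ P x := by
      constructor
      · intro h; exact h x rfl
      · intro h g hg
        exact (hP g x (ConjClasses.mk_eq_mk_iff_isConj.mp hg)).mpr h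
    by_cases hx : P x
    · rw [if_pos (hall.mpr hx)]
      have h1 : ∀ g ∈ Finset.univ.filter (fun g => ConjClasses.mk g = ConjClasses.mk x),
          (if P g then (Nat.card (Subgroup.centralizer ({g} : Set G)) : ℂ) else 0)
            = (Nat.card (Subgroup.centralizer ({x} : Set G)) : ℂ) := by
        intro g hg
        rw [Finset.mem_filter] at hg
        have hgx : ConjClasses.mk g = ConjClasses.mk x := hg.2
        rw [if_pos (hall.mpr hx g hgx)]
        have e1 := Cfsg.Agent.Helper4.card_conjClass_mul_card_centralizer g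
        have e2 := Cfsg.Agent.Helper4.card_conjClass_mul_card_centralizer x
        rw [← hfilter g, hgx, hfilter x] at e1
        have hpos : 0 < (Finset.univ.filter (fun y : G => IsConj x y)).card := by
          apply Finset.card_pos.mpr
          exact ⟨x, Finset.mem_filter.mpr ⟨Finset.mem_univ _, IsConj.refl x⟩⟩
        have : Nat.card (Subgroup.centralizer ({g} : Set G))
            = Nat.card (Subgroup.centralizer ({x} : Set G)) :=
          Nat.eq_of_mul_eq_mul_left hpos (e1.trans e2.symm)
        rw [this]
      rw [Finset.sum_congr rfl h1, Finset.sum_const, nsmul_eq_mul, hfilter x]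
      have e2 := Cfsg.Agent.Helper4.card_conjClass_mul_card_centralizer x
      rw [Nat.card_eq_fintype_card (α := G), ← e2]
      push_cast
      rfl
    · rw [if_neg (fun h => hx (hall.mp h))]
      apply Finset.sum_eq_zero
      intro g hg
      rw [Finset.mem_filter] at hg
      have hgx : ConjClasses.mk g = ConjClasses.mk x := hg.2
      have : ¬ P g := fun h => hx ((hP g x (ConjClasses.mk_eq_mk_iff_isConj.mp hgx)).mp h)
      rw [if_neg this]
  simp only [hfib]
  rw [Finset.sum_ite, Finset.sum_const_zero, add_zero, Finset.sum_const, nsmul_eq_mul,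
    mul_comm, Nat.card_eq_fintype_card (α := {c : ConjClasses G // ∀ g, ConjClasses.mk g = c → P g}),
    Fintype.card_subtype]

/-- A general form of Brauer's permutation lemma for a map `β` of the group inducing a
permutation of the irreducible characters. -/
theorem brauer_perm_general {G : Type u} [Group G] [Finite G] (β : G → G)
    (hβirr : ∀ χ : Cfsg.IrrCharacter G, Cfsg.IsIrrCharacter G ((χ : G → ℂ) ∘ β))
    (hβcl : ∀ g h, IsConj g h → (IsConj g (β g) ↔ IsConj h (β h))) :
    Nat.card {χ : Cfsg.IrrCharacter G // (χ : G → ℂ) ∘ β = (χ : G → ℂ)}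
      = Nat.card {c : ConjClasses G // ∀ g, ConjClasses.mk g = c → IsConj g (β g)} := by
  classical
  have : Fintype G := Fintype.ofFinite G
  have : Finite (Cfsg.IrrCharacter G) := finite_irrCharacter G
  have : Fintype (Cfsg.IrrCharacter G) := Fintype.ofFinite _
  have hG : (Nat.card G : ℂ) ≠ 0 := by exact_mod_cast Nat.card_pos.ne'
  have h1 : ∀ χ : Cfsg.IrrCharacter G,
      ∑ g : G, (χ : G → ℂ) g * conj ((χ : G → ℂ) (β g))
        = (Nat.card G : ℂ) * (if (χ : G → ℂ) ∘ β = (χ : G → ℂ) then 1 else 0) := by
    intro χ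
    have h2 := classInner_irr χ ⟨(χ : G → ℂ) ∘ β, hβirr χ⟩
    unfold Cfsg.classInner at h2
    have h3 : ∑ g : G, (χ : G → ℂ) g * conj ((χ : G → ℂ) (β g))
        = (Nat.card G : ℂ) * (if χ = ⟨(χ : G → ℂ) ∘ β, hβirr χ⟩ then 1 else 0) := by
      rw [← h2]
      field_simp
      rfl
    rw [h3]
    congr 1
    have : (χ = ⟨(χ : G → ℂ) ∘ β, hβirr χ⟩) ↔ ((χ : G → ℂ) ∘ β = (χ : G → ℂ)) := by
      constructor
      · intro h; exact (congrArg Subtype.val h).symm
      · intro h; exact Subtype.ext h.symm
    simp only [this]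
  have h4 : ∀ g : G, ∑ χ : Cfsg.IrrCharacter G, (χ : G → ℂ) g * conj ((χ : G → ℂ) (β g))
      = if IsConj g (β g) then (Nat.card (Subgroup.centralizer ({g} : Set G)) : ℂ) else 0 := by
    intro g
    rw [← finsum_eq_sum_of_fintype]
    by_cases hc : IsConj g (β g)
    · rw [if_pos hc, column_orth_of_isConj hc]
    · rw [if_neg hc, column_orth_of_not_isConj hc]
  have h5 : ∑ χ : Cfsg.IrrCharacter G, ∑ g : G, (χ : G → ℂ) g * conj ((χ : G → ℂ) (β g))
      = ∑ g : G, ∑ χ : Cfsg.IrrCharacter G, (χ : G → ℂ) g * conj ((χ : G → ℂ) (β g)) :=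
    Finset.sum_comm
  simp only [h1, h4] at h5
  rw [sum_centralizer_card_of_class_pred (fun g => IsConj g (β g)) hβcl, ← Finset.mul_sum,
    Finset.sum_boole] at h5
  have h6 := mul_left_cancel₀ hG h5
  rw [← Fintype.card_subtype, ← Nat.card_eq_fintype_card] at h6
  exact_mod_cast h6

end Cfsg.Agent.Lead
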