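import Mathlib
import Cfsg.Prelude.Def_Characters
import Cfsg.Agent.Lead.CharCore5
import Cfsg.Agent.Lead.CharCore6
import Cfsg.Agent.Lead.CharOdd

namespace Cfsg.Agent.Lead

open scoped ComplexConjugate

universe u v

/-- the permutation representation on functions -/
noncomputable def permRep (G : Type u) (X : Type v) [Group G] [MulAction G X] :
    Representation ℂ G (X → ℂ) where
  toFun g := LinearMap.funLeft ℂ ℂ (fun x => g⁻¹ • x)
  map_one' := by
    ext f x
    simp [LinearMap.funLeft_apply]
  map_mul' g h := by
    ext f x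
    simp [LinearMap.funLeft_apply, mul_smul]

/-- the permutation character counts fixed points -/
theorem permRep_character (G : Type u) (X : Type v) [Group G] [MulAction G X] [Finite X] (g : G) :
    (permRep G X).character g = (Nat.card (MulAction.fixedBy X g) : ℂ) := by
  classical
  have : Fintype X := Fintype.ofFinite X
  unfold Representation.character
  rw [LinearMap.trace_eq_matrix_trace ℂ (Pi.basisFun ℂ X), Matrix.trace]
  have h1 : ∀ x : X, Matrix.diag (LinearMap.toMatrix (Pi.basisFun ℂ X) (Pi.basisFun ℂ X)
      (permRep G X g)) x = if g • x = x then (1 : ℂ) else 0 := by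
    intro x
    rw [Matrix.diag_apply, LinearMap.toMatrix_apply]
    simp only [Pi.basisFun_apply, Pi.basisFun_repr]
    show (Pi.single x (1 : ℂ) : X → ℂ) (g⁻¹ • x) = _
    rw [Pi.single_apply]
    have h0 : g⁻¹ • x = x ↔ g • x = x := by rw [inv_smul_eq_iff]; exact eq_comm
    simp only [h0]
  simp only [h1]
  rw [Finset.sum_ite, Finset.sum_const_zero, add_zero, Finset.sum_const, nsmul_eq_mul, mul_one]
  congr 1
  rw [← Fintype.card_subtype, ← Nat.card_eq_fintype_card]
  rfl

/-- Burnside's lemma with `Nat.card` -/
theorem burnside_natCard (G : Type u) (X : Type v) [Group G] [MulAction G X] [Fintype G]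
    [Finite X] :
    ∑ g : G, Nat.card (MulAction.fixedBy X g)
      = Nat.card (MulAction.orbitRel.Quotient G X) * Nat.card G := by
  classical
  have : Fintype X := Fintype.ofFinite X
  have : Fintype (MulAction.orbitRel.Quotient G X) := Fintype.ofFinite _
  have h := MulAction.sum_card_fixedBy_eq_card_orbits_mul_card_group G X
  simp only [Nat.card_eq_fintype_card]
  convert h

/-- fixed embeddings are embeddings into the fixed points -/
noncomputable def fixedEmbEquiv (G : Type u) (X : Type v) [Group G] [MulAction G X] (n : ℕ)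
    (g : G) : MulAction.fixedBy (Fin n ↪ X) g ≃ (Fin n ↪ MulAction.fixedBy X g) where
  toFun e := ⟨fun i => ⟨e.1 i, by
      have h := e.2
      rw [MulAction.mem_fixedBy] at h ⊢
      have h2 := congrArg (fun f : Fin n ↪ X => f i) h
      simpa [Function.Embedding.smul_apply] using h2⟩,
    fun i j h => e.1.injective (congrArg Subtype.val h)⟩
  invFun e' := ⟨e'.trans (Function.Embedding.subtype _), by
      rw [MulAction.mem_fixedBy]
      ext i
      rw [Function.Embedding.smul_apply]
      exact (e' i).2⟩
  left_inv e := Subtype.ext (Function.Embedding.ext fun i => rfl)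
  right_inv e' := Function.Embedding.ext fun i => Subtype.ext rfl

theorem card_fixedBy_embedding_two (G : Type u) (X : Type v) [Group G] [MulAction G X]
    [Finite X] (g : G) :
    Nat.card (MulAction.fixedBy (Fin 2 ↪ X) g)
      = Nat.card (MulAction.fixedBy X g) * (Nat.card (MulAction.fixedBy X g) - 1) := by
  classical
  rw [Nat.card_congr (fixedEmbEquiv G X 2 g)]
  have : Fintype (MulAction.fixedBy X g) := Fintype.ofFinite _
  rw [Nat.card_eq_fintype_card, Fintype.card_embedding_eq, Fintype.card_fin,
    Nat.card_eq_fintype_card]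
  simp [Nat.descFactorial, mul_comm]

theorem card_orbitRel_quotient_eq_one (G : Type u) (X : Type v) [Group G] [MulAction G X]
    [MulAction.IsPretransitive G X] [Nonempty X] :
    Nat.card (MulAction.orbitRel.Quotient G X) = 1 := by
  rw [Nat.card_eq_one_iff_unique]
  exact ⟨(MulAction.pretransitive_iff_subsingleton_quotient G X).mp inferInstance,
    ⟨Quotient.mk'' (Classical.arbitrary X)⟩⟩

/-- the norm of the permutation character minus one counts orbits on ordered pairs -/
theorem permChar_sub_one_norm (G : Type u) (X : Type v) [Group G] [MulAction G X] [Fintype G]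
    [Finite X] [MulAction.IsPretransitive G X] [Nonempty X] :
    Cfsg.classInner (fun g : G => (Nat.card (MulAction.fixedBy X g) : ℂ) - 1)
        (fun g : G => (Nat.card (MulAction.fixedBy X g) : ℂ) - 1)
      = (Nat.card (MulAction.orbitRel.Quotient G (Fin 2 ↪ X)) : ℂ) := by
  classical
  have hG : (Nat.card G : ℂ) ≠ 0 := by exact_mod_cast Nat.card_pos.ne'
  have h1 := burnside_natCard G X
  rw [card_orbitRel_quotient_eq_one G X, one_mul] at h1
  have h2 := burnside_natCard G (Fin 2 ↪ X)
  simp only [card_fixedBy_embedding_two] at h2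
  unfold Cfsg.classInner
  have h3 : ∀ g : G, ((Nat.card (MulAction.fixedBy X g) : ℂ) - 1)
        * conj ((Nat.card (MulAction.fixedBy X g) : ℂ) - 1)
      = ((Nat.card (MulAction.fixedBy X g) * (Nat.card (MulAction.fixedBy X g) - 1) : ℕ) : ℂ)
        - (Nat.card (MulAction.fixedBy X g) : ℂ) + 1 := by
    intro g
    rw [map_sub, Complex.conj_natCast, map_one]
    rcases Nat.eq_zero_or_pos (Nat.card (MulAction.fixedBy X g)) with h | h
    · rw [h]; simp
    · rw [Nat.cast_mul, Nat.cast_sub h]; push_cast; ring
  simp only [h3]
  rw [Finset.sum_add_distrib, Finset.sum_sub_distrib, ← Nat.cast_sum, ← Nat.cast_sum, h2, h1]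
  rw [Finset.sum_const, Finset.card_univ, nsmul_eq_mul, mul_one, ← Nat.card_eq_fintype_card]
  push_cast
  field_simp
  ring

/-- for a transitive action the permutation character minus one is a character -/
theorem permChar_sub_one_isCharacter (G : Type u) (X : Type v) [Group G] [MulAction G X]
    [Finite G] [Finite X] [MulAction.IsPretransitive G X] [Nonempty X] :
    Cfsg.IsCharacter G (fun g : G => (Nat.card (MulAction.fixedBy X g) : ℂ) - 1) := by
  classical
  have : Fintype G := Fintype.ofFinite G
  have : Fintype X := Fintype.ofFinite X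
  have hG : (Nat.card G : ℂ) ≠ 0 := by exact_mod_cast Nat.card_pos.ne'
  have hπ : Cfsg.IsCharacter G (fun g : G => (Nat.card (MulAction.fixedBy X g) : ℂ)) := by
    have h0 := isCharacter_of_rep (permRep G X)
    have h2 : (permRep G X).character
        = fun g : G => (Nat.card (MulAction.fixedBy X g) : ℂ) := funext (permRep_character G X)
    rw [h2] at h0; exact h0
  obtain ⟨m, hm⟩ := exists_multiset_irr hπ
  let χ₀ : Cfsg.IrrCharacter G := ⟨fun _ => 1, isIrrCharacter_one⟩
  have hcount : (m.count χ₀ : ℂ) = 1 := by
    rw [← classInner_multiset_irr m χ₀, ← hm]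
    unfold Cfsg.classInner
    have h1 := burnside_natCard G X
    rw [card_orbitRel_quotient_eq_one G X, one_mul] at h1
    have h4 : ∀ g : G, (Nat.card (MulAction.fixedBy X g) : ℂ) * conj ((χ₀ : G → ℂ) g)
        = (Nat.card (MulAction.fixedBy X g) : ℂ) := by
      intro g
      show (Nat.card (MulAction.fixedBy X g) : ℂ) * conj (1 : ℂ) = _
      rw [map_one, mul_one]
    simp only [h4]
    rw [← Nat.cast_sum, h1]
    field_simp
  have hmem : χ₀ ∈ m := by
    have h5 : m.count χ₀ = 1 := by exact_mod_cast hcount
    exact Multiset.count_pos.mp (by omega)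
  obtain ⟨m', rfl⟩ := Multiset.exists_cons_of_mem hmem
  have h6 : (fun g : G => (Nat.card (MulAction.fixedBy X g) : ℂ) - 1)
      = (m'.map (fun ψ : Cfsg.IrrCharacter G => (ψ : G → ℂ))).sum := by
    funext g
    have h7 := congrFun hm g
    rw [Multiset.map_cons, Multiset.sum_cons] at h7
    simp only [Pi.add_apply] at h7
    rw [h7]
    show (1 : ℂ) + _ - 1 = _
    ring
  rw [h6]
  exact isCharacter_multiset_sum m'

end Cfsg.Agent.Lead
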