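import Mathlib
import Cfsg.Agent.Lead.SubTools

namespace Cfsg.Agent.Lead

open scoped Pointwise

universe u

/-- If `G = H₁ H₂`, `H₁ ≠ 1` is solvable and ... : a nontrivial `p`-subgroup `M` normalised by `H₁`,
with `p` not dividing the index of `H₂`, has its normal closure inside `H₂`. -/
theorem normalClosure_le_of_factor {G : Type u} [Group G] [Finite G] (p : ℕ) [Fact p.Prime]
    (H₁ H₂ M : Subgroup G) (h12 : ∀ g : G, ∃ x ∈ H₁, ∃ y ∈ H₂, g = x * y)
    (hMp : IsPGroup p M) (hMn : ∀ x ∈ H₁, ∀ m ∈ M, x * m * x⁻¹ ∈ M) (hp : ¬ p ∣ H₂.index) :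
    Subgroup.normalClosure (M : Set G) ≤ H₂ := by
  -- a Sylow p-subgroup of G inside H₂
  obtain ⟨P₂⟩ : Nonempty (Sylow p H₂) := inferInstance
  set S₀ : Subgroup G := (P₂ : Subgroup H₂).map H₂.subtype with hS₀
  have hS₀H : S₀ ≤ H₂ := Subgroup.map_subtype_le _
  have hfac : (Nat.card H₂).factorization p = (Nat.card G).factorization p := by
    rw [← H₂.card_mul_index, Nat.factorization_mul Nat.card_pos.ne' (Subgroup.index_ne_zero_of_finite)]
    have : H₂.index.factorization p = 0 := Nat.factorization_eq_zero_of_not_dvd hp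
    simp [this]
  have hS₀card : Nat.card S₀ = p ^ (Nat.card G).factorization p := by
    rw [hS₀, Subgroup.card_map_of_injective H₂.subtype_injective, P₂.card_eq_multiplicity, hfac]
  let S : Sylow p G := Sylow.ofCard S₀ hS₀card
  obtain ⟨P, hMP⟩ := hMp.exists_le_sylow
  obtain ⟨g, hg⟩ := MulAction.exists_smul_eq G S P
  have hMH : M ≤ H₂ := by
    intro m hm
    obtain ⟨x, hx, y, hy, hgxy⟩ := h12 g
    have h1 : x * m * x⁻¹ ∈ (P : Subgroup G) := hMP (hMn x hx m hm)
    rw [← hg, Sylow.coe_subgroup_smul, mem_conj_smul] at h1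
    have h2 : g⁻¹ * (x * m * x⁻¹) * g ∈ H₂ := hS₀H h1
    have h3 : g⁻¹ * (x * m * x⁻¹) * g = y⁻¹ * m * y := by rw [hgxy]; group
    rw [h3] at h2
    have h4 : m = y * (y⁻¹ * m * y) * y⁻¹ := by group
    rw [h4]
    exact mul_mem (mul_mem hy h2) (inv_mem hy)
  have h21 : ∀ g : G, ∃ y ∈ H₂, ∃ x ∈ H₁, g = y * x := by
    intro g
    obtain ⟨x, hx, y, hy, h⟩ := h12 g⁻¹
    refine ⟨y⁻¹, inv_mem hy, x⁻¹, inv_mem hx, ?_⟩
    rw [← mul_inv_rev, ← h, inv_inv]
  unfold Subgroup.normalClosure
  rw [Subgroup.closure_le]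
  intro z hz
  obtain ⟨m, hm, hconj⟩ := Group.mem_conjugatesOfSet_iff.mp hz
  obtain ⟨c, hc⟩ := isConj_iff.mp hconj
  obtain ⟨y, hy, x, hx, hcyx⟩ := h21 c
  have h1 : z = y * (x * m * x⁻¹) * y⁻¹ := by rw [← hc, hcyx]; group
  rw [SetLike.mem_coe, h1]
  exact mul_mem (mul_mem hy (hMH (hMn x hx m hm))) (inv_mem hy)

/-- Wielandt: a group that is a product `H₁H₂ = H₁H₃` of solvable subgroups with the indices of
`H₂` and `H₃` coprime is solvable. -/
theorem solvable_of_three : ∀ (n : ℕ) (G : Type u) [Group G] [Finite G], Nat.card G = n →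
    ∀ H₁ H₂ H₃ : Subgroup G, Group.IsSolvable H₁ → Group.IsSolvable H₂ → Group.IsSolvable H₃ →
    (∀ g : G, ∃ x ∈ H₁, ∃ y ∈ H₂, g = x * y) → (∀ g : G, ∃ x ∈ H₁, ∃ y ∈ H₃, g = x * y) →
    H₂.index.Coprime H₃.index → Group.IsSolvable G := by
  intro n
  induction n using Nat.strong_induction_on with
  | _ n ih =>
    intro G _ _ hn H₁ H₂ H₃ h₁ h₂ h₃ h12 h13 hcop
    by_cases hH₁ : H₁ = ⊥
    · have htop : H₂ = ⊤ := by
        rw [eq_top_iff]
        intro g _
        obtain ⟨x, hx, y, hy, rfl⟩ := h12 g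
        rw [hH₁, Subgroup.mem_bot] at hx
        rw [hx, one_mul]; exact hy
      have hs : Function.Surjective H₂.subtype := by
        intro g
        exact ⟨⟨g, by rw [htop]; trivial⟩, rfl⟩
      exact Group.isSolvable_of_surjective hs
    · have hnt : Nontrivial H₁ := (Subgroup.nontrivial_iff_ne_bot H₁).mpr hH₁
      obtain ⟨p, M', hp, hM'n, hM'p, hM'ne⟩ := exists_normal_pSubgroup_of_solvable H₁
      have : Fact p.Prime := ⟨hp⟩
      set M : Subgroup G := M'.map H₁.subtype with hM
      have hMp : IsPGroup p M := hM'p.map H₁.subtype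
      have hMne : M ≠ ⊥ := by
        intro h
        apply hM'ne
        rw [hM] at h
        exact (Subgroup.map_eq_bot_iff_of_injective M' H₁.subtype_injective).mp h
      have hMn : ∀ x ∈ H₁, ∀ m ∈ M, x * m * x⁻¹ ∈ M := by
        intro x hx m hm
        obtain ⟨m', hm', rfl⟩ := Subgroup.mem_map.mp hm
        exact Subgroup.mem_map.mpr ⟨(⟨x, hx⟩ : H₁) * m' * (⟨x, hx⟩ : H₁)⁻¹,
          hM'n.conj_mem m' hm' ⟨x, hx⟩, rfl⟩
      -- a nontrivial solvable normal subgroup
      have hN : ∃ N : Subgroup G, N.Normal ∧ N ≠ ⊥ ∧ Group.IsSolvable N := by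
        have hnot : ¬ p ∣ H₂.index ∨ ¬ p ∣ H₃.index := by
          by_contra hcon
          push Not at hcon
          exact hp.one_lt.ne' (Nat.eq_one_of_dvd_coprimes hcop hcon.1 hcon.2)
        have hne : Subgroup.normalClosure (M : Set G) ≠ ⊥ := by
          intro h
          apply hMne
          rw [eq_bot_iff, ← h]
          exact Subgroup.le_normalClosure
        rcases hnot with hp2 | hp3
        · have hle := normalClosure_le_of_factor p H₁ H₂ M h12 hMp hMn hp2
          exact ⟨_, Subgroup.normalClosure_normal, hne,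
            Group.isSolvable_of_isSolvable_injective (Subgroup.inclusion_injective hle)⟩
        · have hle := normalClosure_le_of_factor p H₁ H₃ M h13 hMp hMn hp3
          exact ⟨_, Subgroup.normalClosure_normal, hne,
            Group.isSolvable_of_isSolvable_injective (Subgroup.inclusion_injective hle)⟩
      obtain ⟨N, hNn, hNne, hNs⟩ := hN
      let π := QuotientGroup.mk' N
      have hπs : Function.Surjective π := QuotientGroup.mk'_surjective N
      have hcard : Nat.card (G ⧸ N) < n := by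
        rw [← hn, Subgroup.card_eq_card_quotient_mul_card_subgroup N]
        have h1 : 1 < Nat.card N := (Subgroup.one_lt_card_iff_ne_bot N).mpr hNne
        have h2 : 0 < Nat.card (G ⧸ N) := Nat.card_pos
        nlinarith
      have hquot : Group.IsSolvable (G ⧸ N) := by
        apply ih _ hcard (G ⧸ N) rfl (H₁.map π) (H₂.map π) (H₃.map π)
          (Group.isSolvable_of_surjective (MonoidHom.subgroupMap_surjective π H₁))
          (Group.isSolvable_of_surjective (MonoidHom.subgroupMap_surjective π H₂))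
          (Group.isSolvable_of_surjective (MonoidHom.subgroupMap_surjective π H₃))
        · intro q
          obtain ⟨g, rfl⟩ := hπs q
          obtain ⟨x, hx, y, hy, rfl⟩ := h12 g
          exact ⟨π x, Subgroup.mem_map_of_mem π hx, π y, Subgroup.mem_map_of_mem π hy, map_mul π x y⟩
        · intro q
          obtain ⟨g, rfl⟩ := hπs q
          obtain ⟨x, hx, y, hy, rfl⟩ := h13 g
          exact ⟨π x, Subgroup.mem_map_of_mem π hx, π y, Subgroup.mem_map_of_mem π hy, map_mul π x y⟩
        · exact Nat.Coprime.coprime_dvd_left (Subgroup.index_map_dvd H₂ hπs)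
            (Nat.Coprime.coprime_dvd_right (Subgroup.index_map_dvd H₃ hπs) hcop)
      exact Group.isSolvable_of_ker_le_range N.subtype π
        (by rw [QuotientGroup.ker_mk', Subgroup.range_subtype])

end Cfsg.Agent.Lead
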