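import Mathlib
import Cfsg.Agent.Lead.Wielandt3
import Cfsg.Agent.S0144

namespace Cfsg.Agent.Lead

universe u

theorem relIndex_eq_index_of_coprime {G : Type u} [Group G] [Finite G] (H K : Subgroup G)
    (hcop : H.index.Coprime K.index) : K.relIndex H = K.index := by
  have h1 : (H ⊓ K).relIndex H * H.index = (H ⊓ K).index := Subgroup.relIndex_mul_index inf_le_left
  rw [Subgroup.inf_relIndex_left] at h1
  have h2 : K.index ∣ (H ⊓ K).index := Subgroup.index_dvd_of_le inf_le_right
  rw [← h1] at h2
  have h3 : K.index ∣ K.relIndex H := (Nat.Coprime.dvd_mul_right hcop.symm).mp h2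
  have h4 : K.relIndex H ≤ K.index := by
    have := Subgroup.relIndex_le_of_le_right (H := K) (le_top : H ≤ ⊤)
      (by rw [Subgroup.relIndex_top_right]; exact Subgroup.index_ne_zero_of_finite)
    rwa [Subgroup.relIndex_top_right] at this
  have h5 : K.relIndex H ≠ 0 := Subgroup.index_ne_zero_of_finite
  exact le_antisymm h4 (Nat.le_of_dvd (Nat.pos_of_ne_zero h5) h3)

theorem mul_eq_univ_of_relIndex_eq {G : Type u} [Group G] [Finite G] (H K : Subgroup G)
    (h : K.relIndex H = K.index) : ∀ g : G, ∃ x ∈ H, ∃ y ∈ K, g = x * y := by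
  let f : H ⧸ K.subgroupOf H → G ⧸ K := Quotient.map' (fun x : H => (x : G)) (by
    intro a b hab
    rw [QuotientGroup.leftRel_apply] at hab ⊢
    exact Subgroup.mem_subgroupOf.mp hab)
  have hinj : Function.Injective f := by
    intro q₁ q₂
    induction q₁ using Quotient.inductionOn' with
    | h a =>
      induction q₂ using Quotient.inductionOn' with
      | h b =>
        intro hab
        have h1 : (QuotientGroup.mk (a : G) : G ⧸ K) = QuotientGroup.mk (b : G) := hab
        rw [QuotientGroup.eq] at h1
        exact QuotientGroup.eq.mpr (Subgroup.mem_subgroupOf.mpr h1)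
  have hbij : Function.Bijective f := (Nat.bijective_iff_injective_and_card f).mpr ⟨hinj, h⟩
  intro g
  obtain ⟨q, hq⟩ := hbij.2 (QuotientGroup.mk g)
  induction q using Quotient.inductionOn' with
  | h x =>
    have h1 : (QuotientGroup.mk (x : G) : G ⧸ K) = QuotientGroup.mk g := hq
    rw [QuotientGroup.eq] at h1
    exact ⟨x, x.2, (x : G)⁻¹ * g, h1, by group⟩

/-- **Converse of Hall's theorem**: a finite group with a `p`-complement for every prime `p` is
solvable. -/
theorem solvable_of_complements : ∀ (n : ℕ) (G : Type u) [Group G] [Finite G], Nat.card G = n →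
    (∀ p : ℕ, p.Prime → ∃ H : Subgroup G, H.index = p ^ (Nat.card G).factorization p) →
    Group.IsSolvable G := by
  intro n
  induction n using Nat.strong_induction_on with
  | _ n ih =>
    intro G _ _ hn h
    have hG0 : Nat.card G ≠ 0 := Nat.card_pos.ne'
    by_cases h3 : ∃ a b c : ℕ, a ∈ (Nat.card G).primeFactors ∧ b ∈ (Nat.card G).primeFactors ∧
        c ∈ (Nat.card G).primeFactors ∧ a ≠ b ∧ a ≠ c ∧ b ≠ c
    · obtain ⟨p₁, p₂, p₃, hp₁, hp₂, hp₃, h12, h13, h23⟩ := h3
      have key : ∀ p ∈ (Nat.card G).primeFactors, ∃ H : Subgroup G,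
          H.index = p ^ (Nat.card G).factorization p ∧ Group.IsSolvable H := by
        intro p hp
        have hpp : p.Prime := Nat.prime_of_mem_primeFactors hp
        obtain ⟨H, hH⟩ := h p hpp
        refine ⟨H, hH, ?_⟩
        have hapos : 0 < (Nat.card G).factorization p :=
          hpp.factorization_pos_of_dvd hG0 (Nat.dvd_of_mem_primeFactors hp)
        obtain ⟨k, hk⟩ : ∃ k, k = (Nat.card G).factorization p := ⟨_, rfl⟩
        rw [← hk] at hH hapos
        have hcardH : Nat.card H * p ^ k = Nat.card G := by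
          rw [← hH]; exact H.card_mul_index
        have hlt : Nat.card H < n := by
          rw [← hn, ← hcardH]
          have h1 : 1 < p ^ k := Nat.one_lt_pow hapos.ne' hpp.one_lt
          have h2 : 0 < Nat.card H := Nat.card_pos
          nlinarith
        have hfacH : ∀ r, (Nat.card G).factorization r
            = (Nat.card H).factorization r + (if p = r then k else 0) := by
          intro r
          rw [← hcardH, Nat.factorization_mul Nat.card_pos.ne' (pow_ne_zero _ hpp.ne_zero),
            Finsupp.add_apply, hpp.factorization_pow, Finsupp.single_apply]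
        apply ih _ hlt H rfl
        intro r hr
        by_cases hrp : r = p
        · subst hrp
          refine ⟨⊤, ?_⟩
          rw [Subgroup.index_top]
          have h1 := hfacH r
          rw [if_pos rfl, ← hk] at h1
          have h2 : (Nat.card H).factorization r = 0 := by omega
          rw [h2, pow_zero]
        · obtain ⟨Hr, hHr⟩ := h r hr
          refine ⟨Hr.subgroupOf H, ?_⟩
          have hcop : H.index.Coprime Hr.index := by
            rw [hH, hHr]
            exact Nat.Coprime.pow _ _ ((Nat.coprime_primes hpp hr).mpr (Ne.symm hrp))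
          have h1 : (Hr.subgroupOf H).index = Hr.index := relIndex_eq_index_of_coprime H Hr hcop
          have h2 := hfacH r
          rw [if_neg (Ne.symm hrp), add_zero] at h2
          rw [h1, hHr, h2]
      obtain ⟨H₁, hH₁, hs₁⟩ := key p₁ hp₁
      obtain ⟨H₂, hH₂, hs₂⟩ := key p₂ hp₂
      obtain ⟨H₃, hH₃, hs₃⟩ := key p₃ hp₃
      have hpp₁ := Nat.prime_of_mem_primeFactors hp₁
      have hpp₂ := Nat.prime_of_mem_primeFactors hp₂
      have hpp₃ := Nat.prime_of_mem_primeFactors hp₃
      have c12 : H₁.index.Coprime H₂.index := by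
        rw [hH₁, hH₂]; exact Nat.Coprime.pow _ _ ((Nat.coprime_primes hpp₁ hpp₂).mpr h12)
      have c13 : H₁.index.Coprime H₃.index := by
        rw [hH₁, hH₃]; exact Nat.Coprime.pow _ _ ((Nat.coprime_primes hpp₁ hpp₃).mpr h13)
      have c23 : H₂.index.Coprime H₃.index := by
        rw [hH₂, hH₃]; exact Nat.Coprime.pow _ _ ((Nat.coprime_primes hpp₂ hpp₃).mpr h23)
      exact solvable_of_three _ G rfl H₁ H₂ H₃ hs₁ hs₂ hs₃
        (mul_eq_univ_of_relIndex_eq H₁ H₂ (relIndex_eq_index_of_coprime H₁ H₂ c12))
        (mul_eq_univ_of_relIndex_eq H₁ H₃ (relIndex_eq_index_of_coprime H₁ H₃ c13)) c23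
    · have hex : ∃ p q : ℕ, p.Prime ∧ q.Prime ∧
          ∀ r : ℕ, r.Prime → r ∣ Nat.card G → r = p ∨ r = q := by
        by_cases he : ∃ p, p ∈ (Nat.card G).primeFactors
        · obtain ⟨p, hp⟩ := he
          by_cases he2 : ∃ q, q ∈ (Nat.card G).primeFactors ∧ q ≠ p
          · obtain ⟨q, hq, hqp⟩ := he2
            refine ⟨p, q, Nat.prime_of_mem_primeFactors hp, Nat.prime_of_mem_primeFactors hq, ?_⟩
            intro r hr hrd
            by_contra hcon
            push Not at hcon
            exact h3 ⟨p, q, r, hp, hq, Nat.mem_primeFactors.mpr ⟨hr, hrd, hG0⟩, hqp.symm,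
              hcon.1.symm, hcon.2.symm⟩
          · push Not at he2
            refine ⟨p, p, Nat.prime_of_mem_primeFactors hp, Nat.prime_of_mem_primeFactors hp, ?_⟩
            intro r hr hrd
            exact Or.inl (he2 r (Nat.mem_primeFactors.mpr ⟨hr, hrd, hG0⟩))
        · push Not at he
          refine ⟨2, 2, Nat.prime_two, Nat.prime_two, ?_⟩
          intro r hr hrd
          exact absurd (Nat.mem_primeFactors.mpr ⟨hr, hrd, hG0⟩) (he r)
      obtain ⟨p, q, hp, hq, hr⟩ := hex
      exact Cfsg.Agent.S0144.solvable_of_two_primes p q hp hq _ G rfl hr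

end Cfsg.Agent.Lead
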