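import Mathlib
import Cfsg.Agent.Lead.HallConverse
import Cfsg.Agent.Lead.Hall

namespace Cfsg.Agent.Lead

open scoped Pointwise

universe u

theorem index_inf_of_coprime {G : Type u} [Group G] [Finite G] (H K : Subgroup G)
    (hcop : H.index.Coprime K.index) : (H ⊓ K).index = H.index * K.index := by
  have h1 : (H ⊓ K).relIndex H * H.index = (H ⊓ K).index := Subgroup.relIndex_mul_index inf_le_left
  rw [Subgroup.inf_relIndex_left, relIndex_eq_index_of_coprime H K hcop] at h1
  rw [← h1, mul_comm]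

theorem index_finset_inf {G : Type u} [Group G] [Finite G] (H : ℕ → Subgroup G) (a : ℕ → ℕ)
    (T : Finset ℕ) (hT : ∀ q ∈ T, q.Prime ∧ (H q).index = q ^ a q) :
    (T.inf H).index = ∏ q ∈ T, q ^ a q := by
  classical
  induction T using Finset.induction_on with
  | empty => simp
  | @insert q T hq ih =>
    rw [Finset.inf_insert, Finset.prod_insert hq]
    have ih' := ih (fun r hr => hT r (Finset.mem_insert_of_mem hr))
    have h1 := (hT q (Finset.mem_insert_self q T))
    have hcop : (H q).index.Coprime (T.inf H).index := by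
      rw [ih', h1.2, Nat.coprime_prod_right_iff]
      intro r hr
      apply Nat.Coprime.pow
      exact (Nat.coprime_primes h1.1 (hT r (Finset.mem_insert_of_mem hr)).1).mpr
        (fun h => hq (h ▸ hr))
    rw [index_inf_of_coprime _ _ hcop, h1.2, ih']

theorem prod_erase_mul' (T : Finset ℕ) (x : ℕ) (f : ℕ → ℕ) (h : x ∉ T → f x = 1) :
    (∏ r ∈ T.erase x, f r) * f x = ∏ r ∈ T, f r := by
  by_cases hx : x ∈ T
  · exact Finset.prod_erase_mul T f hx
  · rw [Finset.erase_eq_of_notMem hx, h hx, mul_one]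

theorem mul_eq_of_card {G : Type u} [Group G] [Finite G] {A B D : Subgroup G} (hA : A ≤ D)
    (hB : B ≤ D) (hinf : A ⊓ B = ⊥) (hcard : Nat.card D = Nat.card A * Nat.card B) :
    (A : Set G) * (B : Set G) = (D : Set G) := by
  apply Set.Subset.antisymm
  · rintro x ⟨a, ha, b, hb, rfl⟩
    exact mul_mem (hA ha) (hB hb)
  · let f : A × B → D := fun x => ⟨(x.1 : G) * (x.2 : G), mul_mem (hA x.1.2) (hB x.2.2)⟩
    have hinj : Function.Injective f := by
      rintro ⟨a, b⟩ ⟨a', b'⟩ hxy
      have h1 : (a : G) * (b : G) = (a' : G) * (b' : G) := congrArg Subtype.val hxy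
      have h2 : (a' : G)⁻¹ * (a : G) ∈ A ⊓ B := by
        refine Subgroup.mem_inf.mpr ⟨mul_mem (inv_mem a'.2) a.2, ?_⟩
        have : (a' : G)⁻¹ * (a : G) = (b' : G) * (b : G)⁻¹ := by
          rw [inv_mul_eq_iff_eq_mul, ← mul_assoc, ← h1, mul_inv_cancel_right]
        rw [this]; exact mul_mem b'.2 (inv_mem b.2)
      rw [hinf, Subgroup.mem_bot] at h2
      have h3 : (a : G) = (a' : G) := (inv_mul_eq_one.mp h2).symm
      have h4 : (b : G) = (b' : G) := by
        rw [h3] at h1; exact mul_left_cancel h1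
      exact Prod.ext (Subtype.ext h3) (Subtype.ext h4)
    have hbij : Function.Bijective f :=
      (Nat.bijective_iff_injective_and_card f).mpr ⟨hinj, by rw [Nat.card_prod, hcard]⟩
    intro x hx
    obtain ⟨⟨a, b⟩, hab⟩ := hbij.2 ⟨x, hx⟩
    exact ⟨a, a.2, b, b.2, congrArg Subtype.val hab⟩

/-- **Sylow systems** exist in finite solvable groups. -/
theorem exists_sylow_system {G : Type u} [Group G] [Finite G] [Group.IsSolvable G] :
    ∃ S : (p : Nat.Primes) → Sylow (p : ℕ) G,
      ∀ p q : Nat.Primes, (S p : Set G) * (S q : Set G) = (S q : Set G) * (S p : Set G) := by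
  classical
  have hG0 : Nat.card G ≠ 0 := Nat.card_pos.ne'
  set a : ℕ → ℕ := fun q => (Nat.card G).factorization q with ha
  have hex : ∀ q : ℕ, ∃ Hq : Subgroup G, q.Prime → Hq.index = q ^ a q := by
    intro q
    by_cases hq : q.Prime
    · have hmk : Nat.card G = (Nat.card G / q ^ a q) * q ^ a q :=
        (Nat.div_mul_cancel (Nat.ordProj_dvd _ _)).symm
      have hcop : (Nat.card G / q ^ a q).Coprime (q ^ a q) :=
        (Nat.Coprime.pow_left _ (Nat.coprime_ordCompl hq hG0)).symm
      obtain ⟨Hq, hHq, -⟩ := hall_dom_aux _ G rfl _ _ hmk hcop ⊥ (by simp)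
      refine ⟨Hq, fun _ => ?_⟩
      have h1 := Hq.card_mul_index
      rw [hHq] at h1
      have h2 : Nat.card G / q ^ a q * Hq.index = Nat.card G / q ^ a q * q ^ a q := by
        rw [h1, ← hmk]
      exact Nat.eq_of_mul_eq_mul_left (Nat.div_pos (Nat.le_of_dvd Nat.card_pos
        (Nat.ordProj_dvd _ _)) (pow_pos hq.pos _)) h2
    · exact ⟨⊤, fun h => absurd h hq⟩
  choose H hH using hex
  set PF := (Nat.card G).primeFactors with hPF
  have hPFprime : ∀ q ∈ PF, q.Prime := fun q hq => Nat.prime_of_mem_primeFactors hq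
  have hnotPF : ∀ q : ℕ, q ∉ PF → q ^ a q = 1 := by
    intro q hq
    have : a q = 0 := by
      rw [ha]
      exact Finsupp.notMem_support_iff.mp (by rw [Nat.support_factorization]; exact hq)
    rw [this, pow_zero]
  have hprod : ∏ q ∈ PF, q ^ a q = Nat.card G := Nat.prod_factorization_pow_eq_self hG0
  -- the Sylow subgroups
  have hidx : ∀ T : Finset ℕ, T ⊆ PF → (T.inf H).index = ∏ q ∈ T, q ^ a q := fun T hT =>
    index_finset_inf H a T (fun q hq => ⟨hPFprime q (hT hq), hH q (hPFprime q (hT hq))⟩)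
  have hSidx : ∀ p : ℕ, ((PF.erase p).inf H).index * p ^ a p = Nat.card G := by
    intro p
    rw [hidx _ (Finset.erase_subset _ _), prod_erase_mul' PF p (fun q => q ^ a q) (hnotPF p), hprod]
  have hScard : ∀ p : ℕ, Nat.card ((PF.erase p).inf H : Subgroup G) = p ^ a p := by
    intro p
    have h1 := ((PF.erase p).inf H).card_mul_index
    rw [← hSidx p, mul_comm] at h1
    exact Nat.eq_of_mul_eq_mul_left (Nat.pos_of_ne_zero Subgroup.index_ne_zero_of_finite) h1
  refine ⟨fun p => haveI : Fact (p : ℕ).Prime := ⟨p.2⟩; Sylow.ofCard ((PF.erase (p : ℕ)).inf H) (hScard p), ?_⟩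
  intro p q
  by_cases hpq : (p : ℕ) = (q : ℕ)
  · have : p = q := Subtype.ext hpq
    subst this
    rfl
  · show (((PF.erase (p : ℕ)).inf H : Subgroup G) : Set G) * (((PF.erase (q : ℕ)).inf H : Subgroup G) : Set G)
      = (((PF.erase (q : ℕ)).inf H : Subgroup G) : Set G) * (((PF.erase (p : ℕ)).inf H : Subgroup G) : Set G)
    set D : Subgroup G := ((PF.erase (p : ℕ)).erase (q : ℕ)).inf H with hD
    have hDidx : D.index * (q : ℕ) ^ a q * (p : ℕ) ^ a p = Nat.card G := by
      rw [hD, hidx _ ((Finset.erase_subset _ _).trans (Finset.erase_subset _ _)),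
        prod_erase_mul' (PF.erase (p : ℕ)) q (fun r => r ^ a r)
          (fun h => hnotPF q (fun hq => h (Finset.mem_erase.mpr ⟨Ne.symm hpq, hq⟩))),
        prod_erase_mul' PF p (fun r => r ^ a r) (hnotPF p), hprod]
    have hDcard : Nat.card D = (p : ℕ) ^ a p * (q : ℕ) ^ a q := by
      have h1 := D.card_mul_index
      rw [← hDidx] at h1
      have h2 : D.index * Nat.card D = D.index * ((p : ℕ) ^ a p * (q : ℕ) ^ a q) := by
        rw [mul_comm, h1]; ring
      exact Nat.eq_of_mul_eq_mul_left (Nat.pos_of_ne_zero Subgroup.index_ne_zero_of_finite) h2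
    have hpD : (PF.erase (p : ℕ)).inf H ≤ D := Finset.inf_mono (Finset.erase_subset _ _)
    have hqD : (PF.erase (q : ℕ)).inf H ≤ D := by
      apply Finset.inf_mono
      intro r hr
      obtain ⟨hrq, hr'⟩ := Finset.mem_erase.mp hr
      exact Finset.mem_erase.mpr ⟨hrq, (Finset.mem_erase.mp hr').2⟩
    have hinf : (PF.erase (p : ℕ)).inf H ⊓ (PF.erase (q : ℕ)).inf H = ⊥ := by
      apply (Subgroup.disjoint_of_coprime_natCard _).eq_bot
      rw [hScard, hScard]
      exact Nat.Coprime.pow _ _ ((Nat.coprime_primes p.2 q.2).mpr hpq)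
    rw [mul_eq_of_card hpD hqD hinf (by rw [hDcard, hScard, hScard]),
      mul_eq_of_card hqD hpD (by rw [inf_comm]; exact hinf)
        (by rw [hDcard, hScard, hScard, mul_comm])]

end Cfsg.Agent.Lead
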