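import Mathlib
import Cfsg.Agent.Lead.CoprimeAbelian

namespace Cfsg.Agent.Lead

open scoped commutatorElement

variable {G : Type*} [Group G] [Finite G] {p : ℕ} [Fact p.Prime]

/-- A `p'`-complement `K` to a Sylow `p`-subgroup `P` inside its normaliser. -/
theorem exists_complement_in_normalizer (P : Sylow p G) :
    ∃ K : Subgroup G, K ≤ Subgroup.normalizer (P : Set G) ∧ (Nat.card K).Coprime (Nat.card P) ∧
      K ⊓ (P : Subgroup G) = ⊥ ∧
      (∀ n ∈ Subgroup.normalizer (P : Set G), ∃ x ∈ (P : Subgroup G), ∃ k ∈ K, n = x * k) ∧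
      (Nat.card K).Coprime p := by
  classical
  have hPN : (P : Subgroup G) ≤ Subgroup.normalizer ((P : Subgroup G) : Set G) :=
    Subgroup.le_normalizer
  haveI : ((P : Subgroup G).subgroupOf (Subgroup.normalizer ((P : Subgroup G) : Set G))).Normal :=
    Subgroup.normal_in_normalizer
  have hcard : Nat.card ((P : Subgroup G).subgroupOf (Subgroup.normalizer ((P : Subgroup G) : Set G)))
      = Nat.card P := Nat.card_congr (Subgroup.subgroupOfEquivOfLe hPN).toEquiv
  have hidx : ¬ p ∣ ((P : Subgroup G).subgroupOf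
      (Subgroup.normalizer ((P : Subgroup G) : Set G))).index := by
    intro h
    exact P.not_dvd_index (h.trans (Subgroup.relIndex_dvd_index_of_le hPN))
  obtain ⟨k, hk⟩ := IsPGroup.iff_card.mp P.2
  have hcop : (Nat.card ((P : Subgroup G).subgroupOf
      (Subgroup.normalizer ((P : Subgroup G) : Set G)))).Coprime
      ((P : Subgroup G).subgroupOf (Subgroup.normalizer ((P : Subgroup G) : Set G))).index := by
    rw [hcard, hk]
    exact Nat.Coprime.pow_left k ((Nat.Prime.coprime_iff_not_dvd Fact.out).mpr hidx)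
  obtain ⟨K', hK'⟩ := Subgroup.exists_right_complement'_of_coprime hcop
  have h1 : Nat.card (K'.map (Subgroup.normalizer ((P : Subgroup G) : Set G)).subtype) =
      Nat.card K' := Subgroup.card_map_of_injective (Subgroup.subtype_injective _)
  have h4 : Nat.card K' = ((P : Subgroup G).subgroupOf
      (Subgroup.normalizer ((P : Subgroup G) : Set G))).index := by
    have h2 := hK'.card_mul_card
    have h3 := ((P : Subgroup G).subgroupOf
      (Subgroup.normalizer ((P : Subgroup G) : Set G))).card_mul_index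
    have hpos : 0 < Nat.card ((P : Subgroup G).subgroupOf
      (Subgroup.normalizer ((P : Subgroup G) : Set G))) := Nat.card_pos
    exact Nat.eq_of_mul_eq_mul_left hpos (h2.trans h3.symm)
  refine ⟨K'.map (Subgroup.normalizer ((P : Subgroup G) : Set G)).subtype, ?_, ?_, ?_, ?_, ?_⟩
  rotate_left 4
  · rw [h1, h4]
    exact ((Nat.Prime.coprime_iff_not_dvd Fact.out).mpr hidx).symm
  · exact Subgroup.map_subtype_le K'
  · rw [h1, h4, ← hcard]
    exact hcop.symm
  · rw [eq_bot_iff]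
    intro x hx
    obtain ⟨hxK, hxP⟩ := Subgroup.mem_inf.mp hx
    obtain ⟨y, hy, rfl⟩ := Subgroup.mem_map.mp hxK
    have h5 : y ∈ (P : Subgroup G).subgroupOf (Subgroup.normalizer ((P : Subgroup G) : Set G)) ⊓ K' :=
      Subgroup.mem_inf.mpr ⟨Subgroup.mem_subgroupOf.mpr hxP, hy⟩
    rw [hK'.disjoint.eq_bot, Subgroup.mem_bot] at h5
    rw [h5]; simp
  · intro n hn
    have hg : (⟨n, hn⟩ : Subgroup.normalizer ((P : Subgroup G) : Set G)) ∈
        (P : Subgroup G).subgroupOf (Subgroup.normalizer ((P : Subgroup G) : Set G)) ⊔ K' :=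
      hK'.sup_eq_top ▸ Subgroup.mem_top _
    rw [Subgroup.mem_sup_of_normal_left] at hg
    obtain ⟨x, hx, y, hy, hxy⟩ := hg
    refine ⟨x, Subgroup.mem_subgroupOf.mp hx, y, Subgroup.mem_map.mpr ⟨y, hy, rfl⟩, ?_⟩
    have h6 := congrArg Subtype.val hxy
    simpa using h6.symm

/-- For an abelian Sylow subgroup, the focal subgroup is `[P, N_G(P)]`. -/
theorem focal_eq_commutator_normalizer (P : Sylow p G) [IsMulCommutative P] :
    Subgroup.focalSubgroup (P : Subgroup G) =
      ⁅(P : Subgroup G), Subgroup.normalizer (P : Set G)⁆ := by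
  apply le_antisymm
  · rw [Subgroup.focalSubgroup_def, Subgroup.closure_le]
    rintro g ⟨hgP, x, hxP, u, rfl⟩
    have hconj : u * x⁻¹ * u⁻¹ ∈ (P : Subgroup G) := by
      have e : u * x⁻¹ * u⁻¹ = x⁻¹ * ⁅x, u⁆ := by rw [commutatorElement_def]; group
      rw [e]; exact Subgroup.mul_mem _ (Subgroup.inv_mem _ hxP) hgP
    obtain ⟨n, hn, hnx⟩ := Sylow.conj_eq_normalizer_conj_of_mem P x⁻¹ u⁻¹
      (Subgroup.inv_mem _ hxP) (by rw [inv_inv]; exact hconj)
    rw [inv_inv] at hnx
    have e2 : ⁅x, u⁆ = ⁅x, n⁻¹⁆ := by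
      rw [commutatorElement_def, commutatorElement_def, inv_inv]
      calc x * u * x⁻¹ * u⁻¹ = x * (u * x⁻¹ * u⁻¹) := by group
        _ = x * (n⁻¹ * x⁻¹ * n) := by rw [hnx]
        _ = x * n⁻¹ * x⁻¹ * n := by group
    rw [SetLike.mem_coe, e2]
    exact Subgroup.commutator_mem_commutator hxP (Subgroup.inv_mem _ hn)
  · rw [Subgroup.commutator_le]
    intro x hx n hn
    apply Subgroup.subset_closure
    refine ⟨?_, x, hx, n, rfl⟩
    rw [commutatorElement_def]
    have h1 : n * x⁻¹ * n⁻¹ ∈ (P : Subgroup G) :=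
      (Subgroup.mem_normalizer_iff.mp hn x⁻¹).mp (Subgroup.inv_mem _ hx)
    have e : x * n * x⁻¹ * n⁻¹ = x * (n * x⁻¹ * n⁻¹) := by group
    rw [e]; exact Subgroup.mul_mem _ hx h1

/-- If `N = V K` with `V` abelian, then `[V, N] = [V, K]` (for `K ≤ N ≤ N_G(V)`). -/
theorem commutator_eq_of_prod (V N K : Subgroup G) [IsMulCommutative V]
    (hKN : K ≤ N) (hNV : N ≤ Subgroup.normalizer (V : Set G))
    (hprod : ∀ n ∈ N, ∃ x ∈ V, ∃ k ∈ K, n = x * k) : ⁅V, N⁆ = ⁅V, K⁆ := by
  have hab : ∀ a ∈ V, ∀ b ∈ V, a * b = b * a := fun a ha b hb =>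
    congrArg Subtype.val (mul_comm' (⟨a, ha⟩ : V) ⟨b, hb⟩)
  apply le_antisymm
  · rw [Subgroup.commutator_le]
    intro a ha g hg
    obtain ⟨a', ha', k, hk, rfl⟩ := hprod g hg
    have hak : ⁅a, k⁆ ∈ V := by
      rw [commutatorElement_def]
      have h1 : k * a⁻¹ * k⁻¹ ∈ V :=
        (Subgroup.mem_normalizer_iff.mp (hNV (hKN hk)) a⁻¹).mp (V.inv_mem ha)
      have e : a * k * a⁻¹ * k⁻¹ = a * (k * a⁻¹ * k⁻¹) := by group
      rw [e]; exact V.mul_mem ha h1
    have e1 : ⁅a, a' * k⁆ = ⁅a, k⁆ := by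
      have e2 : ⁅a, a' * k⁆ = (a * a') * k * a⁻¹ * k⁻¹ * a'⁻¹ := by
        rw [commutatorElement_def]; group
      have e3 : a' * ⁅a, k⁆ = ⁅a, k⁆ * a' := hab a' ha' _ hak
      rw [e2, hab a ha a' ha']
      calc a' * a * k * a⁻¹ * k⁻¹ * a'⁻¹ = a' * ⁅a, k⁆ * a'⁻¹ := by
            rw [commutatorElement_def]; group
        _ = ⁅a, k⁆ := by rw [e3]; group
    rw [e1]
    exact Subgroup.commutator_mem_commutator ha hk
  · exact Subgroup.commutator_mono le_rfl hKN

/-- If `N = V K` with `V` abelian, then `C_V(N) = C_V(K)`. -/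
theorem inf_centralizer_eq_of_prod (V N K : Subgroup G) [IsMulCommutative V]
    (hKN : K ≤ N) (hprod : ∀ n ∈ N, ∃ x ∈ V, ∃ k ∈ K, n = x * k) :
    V ⊓ Subgroup.centralizer (N : Set G) = V ⊓ Subgroup.centralizer (K : Set G) := by
  have hab : ∀ a ∈ V, ∀ b ∈ V, a * b = b * a := fun a ha b hb =>
    congrArg Subtype.val (mul_comm' (⟨a, ha⟩ : V) ⟨b, hb⟩)
  apply le_antisymm
  · exact inf_le_inf_left _ (Subgroup.centralizer_le hKN)
  · intro x hx
    obtain ⟨hxV, hxC⟩ := Subgroup.mem_inf.mp hx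
    refine Subgroup.mem_inf.mpr ⟨hxV, ?_⟩
    rw [Subgroup.mem_centralizer_iff]
    intro g hg
    obtain ⟨a, ha, k, hk, rfl⟩ := hprod g hg
    have e1 : k * x = x * k := (Subgroup.mem_centralizer_iff.mp hxC) k hk
    have e2 : a * x = x * a := hab a ha x hxV
    calc a * k * x = a * (k * x) := by group
      _ = a * (x * k) := by rw [e1]
      _ = (a * x) * k := by group
      _ = x * a * k := by rw [e2]
      _ = x * (a * k) := by group

/-- Decomposition of an abelian Sylow subgroup under its normaliser. -/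
theorem abelianSylow_decomp (P : Sylow p G) [IsMulCommutative P] :
    ((P : Subgroup G) ⊓ Subgroup.centralizer (Subgroup.normalizer (P : Set G) : Set G)) ⊓
        ⁅(P : Subgroup G), Subgroup.normalizer (P : Set G)⁆ = ⊥ ∧
    ((P : Subgroup G) ⊓ Subgroup.centralizer (Subgroup.normalizer (P : Set G) : Set G)) ⊔
        ⁅(P : Subgroup G), Subgroup.normalizer (P : Set G)⁆ = P := by
  obtain ⟨K, hKN, hcop, -, hprod, -⟩ := exists_complement_in_normalizer P
  have h1 := commutator_eq_of_prod (P : Subgroup G) _ K hKN le_rfl hprod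
  have h2 := inf_centralizer_eq_of_prod (P : Subgroup G) _ K hKN hprod
  rw [h1, h2]
  exact ⟨fixed_inf_commutator_eq_bot K (P : Subgroup G) hKN hcop,
    fixed_sup_commutator_eq K (P : Subgroup G) hKN hcop⟩

end Cfsg.Agent.Lead
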