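import Mathlib
import Cfsg.Prelude.Def_Characters
import Cfsg.Agent.Lead.CharCore5
import Cfsg.Agent.Lead.CharCore4

namespace Cfsg.Agent.Lead

open scoped ComplexConjugate

universe u v

/-- the inner product of product functions on a direct product factorises -/
theorem classInner_prod {G : Type u} {H : Type v} [Group G] [Group H] [Fintype G] [Fintype H]
    (f₁ f₂ : G → ℂ) (g₁ g₂ : H → ℂ) :
    Cfsg.classInner (fun x : G × H => f₁ x.1 * g₁ x.2) (fun x : G × H => f₂ x.1 * g₂ x.2)
      = Cfsg.classInner f₁ f₂ * Cfsg.classInner g₁ g₂ := by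
  unfold Cfsg.classInner
  rw [Nat.card_prod, Fintype.sum_prod_type]
  have h : ∀ x : G, ∑ y : H, f₁ x * g₁ y * conj (f₂ x * g₂ y)
      = (f₁ x * conj (f₂ x)) * ∑ y : H, g₁ y * conj (g₂ y) := by
    intro x
    rw [Finset.mul_sum]
    refine Finset.sum_congr rfl (fun y _ => ?_)
    rw [map_mul (starRingEnd ℂ)]; ring
  simp only [h]
  rw [← Finset.sum_mul]
  push_cast
  rw [mul_inv]
  ring

/-- products of irreducible characters are irreducible characters of the direct product -/
theorem isIrrCharacter_prod {G : Type u} {H : Type v} [Group G] [Group H] [Finite G] [Finite H]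
    {φ : G → ℂ} {ψ : H → ℂ} (hφ : Cfsg.IsIrrCharacter G φ) (hψ : Cfsg.IsIrrCharacter H ψ) :
    Cfsg.IsIrrCharacter (G × H) (fun x => φ x.1 * ψ x.2) := by
  have : Fintype G := Fintype.ofFinite G
  have : Fintype H := Fintype.ofFinite H
  have h1 : Cfsg.IsCharacter (G × H) (fun x => φ x.1 * ψ x.2) :=
    isCharacter_mul (isCharacter_comp (MonoidHom.fst G H) (isCharacter_of_isIrrCharacter hφ))
      (isCharacter_comp (MonoidHom.snd G H) (isCharacter_of_isIrrCharacter hψ))
  apply isIrrCharacter_of_classInner_eq_one h1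
  rw [classInner_prod, classInner_self_of_isIrrCharacter hφ,
    classInner_self_of_isIrrCharacter hψ, mul_one]

/-- every irreducible character of a direct product is a product of irreducible characters -/
theorem isIrrCharacter_prod_exists {G : Type u} {H : Type v} [Group G] [Group H] [Finite G]
    [Finite H] {θ : G × H → ℂ} (hθ : Cfsg.IsIrrCharacter (G × H) θ) :
    ∃ (φ : G → ℂ) (ψ : H → ℂ), Cfsg.IsIrrCharacter G φ ∧ Cfsg.IsIrrCharacter H ψ ∧
      θ = fun x => φ x.1 * ψ x.2 := by
  classical
  have : Fintype G := Fintype.ofFinite G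
  have : Fintype H := Fintype.ofFinite H
  by_contra hcon
  push Not at hcon
  have horth : ∀ (φ : Cfsg.IrrCharacter G) (ψ : Cfsg.IrrCharacter H),
      Cfsg.classInner θ (fun x : G × H => (φ : G → ℂ) x.1 * (ψ : H → ℂ) x.2) = 0 := by
    intro φ ψ
    have h1 := isIrrCharacter_prod φ.2 ψ.2
    have h2 := classInner_irr (⟨θ, hθ⟩ : Cfsg.IrrCharacter (G × H)) ⟨_, h1⟩
    rw [if_neg] at h2
    · exact h2
    · intro h
      exact hcon φ ψ φ.2 ψ.2 (congrArg Subtype.val h)
  have hcf : Cfsg.IsClassFunction (G × H) θ :=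
    isCharacter_isClassFunction (isCharacter_of_isIrrCharacter hθ)
  have hF : ∀ (φ : Cfsg.IrrCharacter G) (h : H),
      ∑ g : G, θ (g, h) * conj ((φ : G → ℂ) g) = 0 := by
    intro φ
    have hz : (fun h : H => ∑ g : G, θ (g, h) * conj ((φ : G → ℂ) g)) = 0 := by
      apply classFunction_eq_zero_of_orth
      · intro h k
        beta_reduce
        refine Finset.sum_congr rfl (fun g _ => ?_)
        have h3 := hcf (g, h) (1, k)
        simp only [Prod.mk_mul_mk, Prod.inv_mk, one_mul, inv_one, mul_one] at h3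
        rw [h3]
      · intro ψ
        have h0 := horth φ ψ
        unfold Cfsg.classInner at h0 ⊢
        rw [Fintype.sum_prod_type] at h0
        have hGH : (Nat.card (G × H) : ℂ)⁻¹ ≠ 0 :=
          inv_ne_zero (by exact_mod_cast Nat.card_pos.ne')
        have h1 := (mul_eq_zero.mp h0).resolve_left hGH
        rw [Finset.sum_comm] at h1
        have h4 : ∑ h : H, (∑ g : G, θ (g, h) * conj ((φ : G → ℂ) g)) * conj ((ψ : H → ℂ) h)
            = ∑ h : H, ∑ g : G, θ (g, h) * conj ((φ : G → ℂ) g * (ψ : H → ℂ) h) := by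
          refine Finset.sum_congr rfl (fun h _ => ?_)
          rw [Finset.sum_mul]
          refine Finset.sum_congr rfl (fun g _ => ?_)
          rw [map_mul (starRingEnd ℂ)]; ring
        rw [h4, h1, mul_zero]
    intro h
    exact congrFun hz h
  have hzero : ∀ (h : H), (fun g : G => θ (g, h)) = 0 := by
    intro h
    apply classFunction_eq_zero_of_orth
    · intro g k
      have h3 := hcf (g, h) (k, 1)
      simp only [Prod.mk_mul_mk, Prod.inv_mk, one_mul, inv_one, mul_one] at h3
      exact h3
    · intro φ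
      unfold Cfsg.classInner
      rw [hF φ h, mul_zero]
  obtain ⟨n, hn, h1⟩ := isIrrCharacter_one_eq_nat hθ
  have h2 := congrFun (hzero 1) 1
  simp only [Pi.zero_apply] at h2
  have h3 : θ 1 = 0 := h2
  rw [h1] at h3
  exact hn.ne' (by exact_mod_cast h3)

end Cfsg.Agent.Lead
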