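import Mathlib

set_option autoImplicit false

open scoped commutatorElement

namespace Cfsg.Agent.Lead.Class3

theorem rels {R : Type*} [Group R] (x y : R) :
    y * x = x * y * ⁅y⁻¹, x⁻¹⁆ ∧
    ⁅y⁻¹, x⁻¹⁆ * x = x * ⁅y⁻¹, x⁻¹⁆ * ⁅⁅x⁻¹, y⁻¹⁆, x⁻¹⁆ ∧
    ⁅y⁻¹, x⁻¹⁆ * y = y * ⁅y⁻¹, x⁻¹⁆ * ⁅⁅x⁻¹, y⁻¹⁆, y⁻¹⁆ := by
  refine ⟨?_, ?_, ?_⟩ <;> simp only [commutatorElement_def] <;> group

theorem mem_comm {R : Type*} [Group R] (a b : R) : ⁅a, b⁆ ∈ commutator R := by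
  rw [commutator_def]
  exact Subgroup.commutator_mem_commutator (Subgroup.mem_top a) (Subgroup.mem_top b)

theorem central3 {R : Type*} [Group R]
    (hcl : ⁅⁅commutator R, (⊤ : Subgroup R)⁆, (⊤ : Subgroup R)⁆ = ⊥) (a b g h : R) :
    ⁅⁅a, b⁆, g⁆ * h = h * ⁅⁅a, b⁆, g⁆ := by
  have hmem : ⁅⁅⁅a, b⁆, g⁆, h⁆ ∈ ⁅⁅commutator R, (⊤ : Subgroup R)⁆, (⊤ : Subgroup R)⁆ :=
    Subgroup.commutator_mem_commutator
      (Subgroup.commutator_mem_commutator (mem_comm a b) (Subgroup.mem_top g)) (Subgroup.mem_top h)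
  rw [hcl, Subgroup.mem_bot] at hmem
  exact commutatorElement_eq_one_iff_mul_comm.mp hmem

theorem central2 {R : Type*} [Group R]
    (hcl : ⁅commutator R, (⊤ : Subgroup R)⁆ = ⊥) (a b h : R) :
    ⁅a, b⁆ * h = h * ⁅a, b⁆ := by
  have hmem : ⁅⁅a, b⁆, h⁆ ∈ ⁅commutator R, (⊤ : Subgroup R)⁆ :=
    Subgroup.commutator_mem_commutator (mem_comm a b) (Subgroup.mem_top h)
  rw [hcl, Subgroup.mem_bot] at hmem
  exact commutatorElement_eq_one_iff_mul_comm.mp hmem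

theorem cpow {R : Type*} [Group R] (u v w : R) (hvu : v * u = u * v * w)
    (hw : ∀ g : R, w * g = g * w) (n : ℕ) : v * u ^ n = u ^ n * v * w ^ n := by
  induction n with
  | zero => simp
  | succ n ih =>
    have hwn : w ^ n * u = u * w ^ n := ((show Commute w u from hw u).pow_left n).eq
    calc v * u ^ (n + 1) = v * u ^ n * u := by rw [pow_succ u n, ← mul_assoc]
      _ = u ^ n * v * w ^ n * u := by rw [ih]
      _ = u ^ n * (v * u) * w ^ n := by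
          rw [mul_assoc (u ^ n * v) (w ^ n) u, hwn]; simp only [mul_assoc]
      _ = u ^ n * (u * v * w) * w ^ n := by rw [hvu]
      _ = u ^ (n + 1) * v * w ^ (n + 1) := by
          rw [pow_succ u n, pow_succ' w n]; simp only [mul_assoc]

theorem central_pow_one {R : Type*} [Group R] (u v w : R) (hvu : v * u = u * v * w)
    (hw : ∀ g : R, w * g = g * w) (p : ℕ) (hu : u ^ p = 1) : w ^ p = 1 := by
  have h := cpow u v w hvu hw p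
  rw [hu, mul_one, one_mul] at h
  have h2 : v * w ^ p = v * 1 := by rw [mul_one]; exact h.symm
  exact mul_left_cancel h2

theorem formula {R : Type*} [Group R] (x y c d₁ d₂ : R)
    (hyx : y * x = x * y * c) (hcx : c * x = x * c * d₁) (hcy : c * y = y * c * d₂)
    (h1 : ∀ g : R, d₁ * g = g * d₁) (h2 : ∀ g : R, d₂ * g = g * d₂) (N : ℕ) :
    ∃ e a b : ℕ, (x * y) ^ N = x ^ N * (y ^ N * (c ^ e * (d₁ ^ a * d₂ ^ b))) ∧
      2 * e + N = N ^ 2 ∧ 6 * a + 3 * N ^ 2 = N ^ 3 + 2 * N ∧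
      6 * b + 3 * N ^ 2 = 2 * N ^ 3 + N := by
  have P1 : ∀ (k : ℕ) (g : R), d₁ ^ k * g = g * d₁ ^ k :=
    fun k g => ((show Commute d₁ g from h1 g).pow_left k).eq
  have P2 : ∀ (k : ℕ) (g : R), d₂ ^ k * g = g * d₂ ^ k :=
    fun k g => ((show Commute d₂ g from h2 g).pow_left k).eq
  have A1 : ∀ (k : ℕ) (g z : R), d₁ ^ k * (g * z) = g * (d₁ ^ k * z) := fun k g z => by
    rw [← mul_assoc (d₁ ^ k) g z, P1 k g, mul_assoc g (d₁ ^ k) z]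
  have A2 : ∀ (k : ℕ) (g z : R), d₂ ^ k * (g * z) = g * (d₂ ^ k * z) := fun k g z => by
    rw [← mul_assoc (d₂ ^ k) g z, P2 k g, mul_assoc g (d₂ ^ k) z]
  have F1 : ∀ (k : ℕ) (z : R), c ^ k * (x * z) = x * (c ^ k * (d₁ ^ k * z)) := by
    intro k z
    have hs : SemiconjBy x (c * d₁) c := by
      show x * (c * d₁) = c * x
      rw [hcx, mul_assoc]
    have h := (hs.pow_right k).eq
    rw [(show Commute c d₁ from (h1 c).symm).mul_pow] at h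
    rw [← mul_assoc (c ^ k) x z, ← h]; simp only [mul_assoc]
  have F2 : ∀ (k : ℕ) (z : R), c ^ k * (y * z) = y * (c ^ k * (d₂ ^ k * z)) := by
    intro k z
    have hs : SemiconjBy y (c * d₂) c := by
      show y * (c * d₂) = c * y
      rw [hcy, mul_assoc]
    have h := (hs.pow_right k).eq
    rw [(show Commute c d₂ from (h2 c).symm).mul_pow] at h
    rw [← mul_assoc (c ^ k) y z, ← h]; simp only [mul_assoc]
  have F3 : ∀ n : ℕ, ∃ t : ℕ, y ^ n * x = x * y ^ n * c ^ n * d₂ ^ t ∧ 2 * t + n = n ^ 2 := by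
    intro n
    induction n with
    | zero => exact ⟨0, by simp, by norm_num⟩
    | succ n ih =>
      obtain ⟨t, ht, hta⟩ := ih
      refine ⟨n + t, ?_, by nlinarith [hta]⟩
      calc y ^ (n + 1) * x = y ^ n * x * (y * c) := by
            rw [pow_succ y n, mul_assoc (y ^ n) y x, hyx]; simp only [mul_assoc]
        _ = x * y ^ n * c ^ n * d₂ ^ t * (y * c) := by rw [ht]
        _ = x * (y ^ n * (c ^ n * (d₂ ^ t * (y * c)))) := by simp only [mul_assoc]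
        _ = x * (y ^ n * (y * (c ^ n * (c * (d₂ ^ n * d₂ ^ t))))) := by
            rw [A2 t y c, F2 n, P2 t c, A2 n c]
        _ = x * y ^ (n + 1) * c ^ (n + 1) * d₂ ^ (n + t) := by
            rw [pow_succ y n, pow_succ c n, pow_add d₂ n t]; simp only [mul_assoc]
  have MY : ∀ (i j k l m : ℕ), x ^ i * (y ^ j * (c ^ k * (d₁ ^ l * d₂ ^ m))) * y
      = x ^ i * (y ^ (j + 1) * (c ^ k * (d₁ ^ l * d₂ ^ (k + m)))) := by
    intro i j k l m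
    have e1 : d₁ ^ l * d₂ ^ m * y = y * (d₁ ^ l * d₂ ^ m) := by
      rw [mul_assoc (d₁ ^ l) (d₂ ^ m) y, P2 m y, A1 l y]
    have e2 : c ^ k * (y * (d₁ ^ l * d₂ ^ m)) = y * (c ^ k * (d₁ ^ l * d₂ ^ (k + m))) := by
      rw [F2 k, A2 k (d₁ ^ l), ← pow_add d₂ k m]
    calc x ^ i * (y ^ j * (c ^ k * (d₁ ^ l * d₂ ^ m))) * y
        = x ^ i * (y ^ j * (c ^ k * (d₁ ^ l * d₂ ^ m * y))) := by simp only [mul_assoc]
      _ = x ^ i * (y ^ j * (y * (c ^ k * (d₁ ^ l * d₂ ^ (k + m))))) := by rw [e1, e2]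
      _ = x ^ i * (y ^ (j + 1) * (c ^ k * (d₁ ^ l * d₂ ^ (k + m)))) := by
          rw [pow_succ y j, mul_assoc (y ^ j) y]
  have MX : ∀ (i j k l m t : ℕ), y ^ j * x = x * y ^ j * c ^ j * d₂ ^ t →
      x ^ i * (y ^ j * (c ^ k * (d₁ ^ l * d₂ ^ m))) * x
      = x ^ (i + 1) * (y ^ j * (c ^ (j + k) * (d₁ ^ (k + l) * d₂ ^ (t + m)))) := by
    intro i j k l m t ht
    have e1 : d₁ ^ l * d₂ ^ m * x = x * (d₁ ^ l * d₂ ^ m) := by
      rw [mul_assoc (d₁ ^ l) (d₂ ^ m) x, P2 m x, A1 l x]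
    have e2 : c ^ k * (x * (d₁ ^ l * d₂ ^ m)) = x * (c ^ k * (d₁ ^ (k + l) * d₂ ^ m)) := by
      rw [F1 k, ← mul_assoc (d₁ ^ k) (d₁ ^ l), ← pow_add d₁ k l]
    have e3 : y ^ j * (x * (c ^ k * (d₁ ^ (k + l) * d₂ ^ m)))
        = x * (y ^ j * (c ^ (j + k) * (d₁ ^ (k + l) * d₂ ^ (t + m)))) := by
      rw [← mul_assoc (y ^ j) x, ht]
      simp only [mul_assoc]
      rw [A2 t (c ^ k), A2 t (d₁ ^ (k + l)), ← pow_add d₂ t m, ← mul_assoc (c ^ j) (c ^ k),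
        ← pow_add c j k]
    calc x ^ i * (y ^ j * (c ^ k * (d₁ ^ l * d₂ ^ m))) * x
        = x ^ i * (y ^ j * (c ^ k * (d₁ ^ l * d₂ ^ m * x))) := by simp only [mul_assoc]
      _ = x ^ i * (x * (y ^ j * (c ^ (j + k) * (d₁ ^ (k + l) * d₂ ^ (t + m))))) := by
          rw [e1, e2, e3]
      _ = x ^ (i + 1) * (y ^ j * (c ^ (j + k) * (d₁ ^ (k + l) * d₂ ^ (t + m)))) := by
          rw [pow_succ x i, mul_assoc (x ^ i) x]
  induction N with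
  | zero => exact ⟨0, 0, 0, by simp, by norm_num, by norm_num, by norm_num⟩
  | succ N ih =>
    obtain ⟨e, a, b, hN, he, ha, hb⟩ := ih
    obtain ⟨t, ht, hta⟩ := F3 N
    refine ⟨N + e, e + a, N + e + (t + b), ?_, by nlinarith [he], by nlinarith [ha, he],
      by nlinarith [hb, he, hta]⟩
    rw [pow_succ (x * y) N, hN, ← mul_assoc _ x y, MX N N e a b t ht,
      MY (N + 1) N (N + e) (e + a) (t + b)]

theorem dvd_e {p e : ℕ} (hp : p.Prime) (h2 : p ≠ 2) (he : 2 * e + p = p ^ 2) : p ∣ e := by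
  have h1 : p ∣ 2 * e + p := ⟨p, by rw [he, sq]⟩
  have h2e : p ∣ 2 * e := (Nat.dvd_add_left (dvd_refl p)).mp h1
  have hc : Nat.Coprime p 2 := (Nat.coprime_primes hp Nat.prime_two).mpr h2
  exact hc.dvd_of_dvd_mul_left h2e

theorem dvd_six {p a s : ℕ} (hp : p.Prime) (h3 : 3 < p) (ha : 6 * a + 3 * p ^ 2 = p * s) :
    p ∣ a := by
  have h1 : p ∣ 6 * a + 3 * p ^ 2 := ⟨s, ha⟩
  have h2 : p ∣ 3 * p ^ 2 := ⟨3 * p, by ring⟩
  have h6 : p ∣ 6 * a := (Nat.dvd_add_left h2).mp h1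
  have hc2 : Nat.Coprime p 2 := (Nat.coprime_primes hp Nat.prime_two).mpr (by omega)
  have hc3 : Nat.Coprime p 3 := (Nat.coprime_primes hp Nat.prime_three).mpr (by omega)
  have hc6 : Nat.Coprime p 6 := hc2.mul_right hc3
  exact hc6.dvd_of_dvd_mul_left h6

theorem mul_exp_central {R : Type*} [Group R] {p : ℕ} (hp : p.Prime) (hp2 : p ≠ 2)
    (u v w : R) (hvu : v * u = u * v * w) (hw : ∀ g : R, w * g = g * w)
    (hu : u ^ p = 1) (hv : v ^ p = 1) : (u * v) ^ p = 1 := by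
  have hwp : w ^ p = 1 := central_pow_one u v w hvu hw p hu
  obtain ⟨e, a, b, hf, he, -, -⟩ := formula u v w 1 1 hvu
    (by rw [mul_one]; exact hw u) (by rw [mul_one]; exact hw v)
    (fun g => by rw [one_mul, mul_one]) (fun g => by rw [one_mul, mul_one]) p
  obtain ⟨k, rfl⟩ := dvd_e hp hp2 he
  rw [hf, hu, hv, pow_mul, hwp]; simp

theorem mul_exp3 {R : Type*} [Group R] {p : ℕ} (hp : p.Prime) (hp3 : 3 < p)
    (hZ : ∀ a b g h : R, ⁅⁅a, b⁆, g⁆ * h = h * ⁅⁅a, b⁆, g⁆)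
    (x y : R) (hx : x ^ p = 1) (hy : y ^ p = 1) : (x * y) ^ p = 1 := by
  obtain ⟨r1, r2, r3⟩ := rels x y
  have hD1 : ∀ g : R, ⁅⁅x⁻¹, y⁻¹⁆, x⁻¹⁆ * g = g * ⁅⁅x⁻¹, y⁻¹⁆, x⁻¹⁆ := hZ x⁻¹ y⁻¹ x⁻¹
  have hD2 : ∀ g : R, ⁅⁅x⁻¹, y⁻¹⁆, y⁻¹⁆ * g = g * ⁅⁅x⁻¹, y⁻¹⁆, y⁻¹⁆ := hZ x⁻¹ y⁻¹ y⁻¹
  have hD1p : ⁅⁅x⁻¹, y⁻¹⁆, x⁻¹⁆ ^ p = 1 := central_pow_one x _ _ r2 hD1 p hx
  have hD2p : ⁅⁅x⁻¹, y⁻¹⁆, y⁻¹⁆ ^ p = 1 := central_pow_one y _ _ r3 hD2 p hy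
  have hCp : ⁅y⁻¹, x⁻¹⁆ ^ p = 1 := by
    have hC : ⁅y⁻¹, x⁻¹⁆ = y⁻¹ * (x⁻¹ * y * x) := by
      simp only [commutatorElement_def]; group
    have hu : (y⁻¹) ^ p = 1 := by rw [inv_pow, hy, inv_one]
    have hv : (x⁻¹ * y * x) ^ p = 1 := by
      have h := conj_pow (i := p) (a := x⁻¹) (b := y)
      rw [inv_inv] at h
      rw [h, hy]; group
    have hW : ∀ g : R, ⁅⁅x⁻¹, y⁻¹⁆, y⁆ * g = g * ⁅⁅x⁻¹, y⁻¹⁆, y⁆ := hZ x⁻¹ y⁻¹ y
    have hrel : (x⁻¹ * y * x) * y⁻¹ = y⁻¹ * (x⁻¹ * y * x) * ⁅⁅x⁻¹, y⁻¹⁆, y⁆ := by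
      simp only [commutatorElement_def]; group
    rw [hC]
    exact mul_exp_central hp (by omega) y⁻¹ (x⁻¹ * y * x) _ hrel hW hu hv
  obtain ⟨e, a, b, hf, he, ha, hb⟩ := formula x y _ _ _ r1 r2 r3 hD1 hD2 p
  obtain ⟨k1, rfl⟩ := dvd_e hp (by omega) he
  obtain ⟨k2, rfl⟩ := dvd_six hp hp3 (s := p ^ 2 + 2) (by rw [ha]; ring)
  obtain ⟨k3, rfl⟩ := dvd_six hp hp3 (s := 2 * p ^ 2 + 1) (by rw [hb]; ring)
  rw [hf, hx, hy, pow_mul, pow_mul, pow_mul, hCp, hD1p, hD2p]; simp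

theorem closure_exp {R : Type*} [Group R] (p : ℕ)
    (hmul : ∀ x y : R, x ^ p = 1 → y ^ p = 1 → (x * y) ^ p = 1) (g : R)
    (hg : g ∈ Subgroup.closure {x : R | x ^ p = 1}) : g ^ p = 1 := by
  induction hg using Subgroup.closure_induction with
  | mem x hx => exact hx
  | one => exact one_pow p
  | mul x y _ _ hx hy => exact hmul x y hx hy
  | inv x _ hx => rw [inv_pow, hx, inv_one]

end Cfsg.Agent.Lead.Class3
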