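import Mathlib

set_option autoImplicit false

namespace Cfsg.Agent.Lead

theorem eq_of_orderOf_two_of_isCyclic {H : Type*} [Group H] [Finite H] [IsCyclic H] {a b : H}
    (ha : orderOf a = 2) (hb : orderOf b = 2) : a = b := by
  classical
  have := Fintype.ofFinite H
  have hd : 2 ∣ Fintype.card H := by
    rw [← ha, ← Nat.card_eq_fintype_card]; exact orderOf_dvd_natCard a
  have h1 := IsCyclic.card_orderOf_eq_totient hd
  rw [Nat.totient_two] at h1
  have h2 := Finset.card_le_one.mp h1.le
  exact h2 a (by simp [ha]) b (by simp [hb])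

end Cfsg.Agent.Lead
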