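import Mathlib

namespace Cfsg.Agent.Lead

/-- In a finite cyclic group, a subgroup whose order divides the order of another subgroup is
contained in it. -/
theorem le_of_card_dvd_of_isCyclic {P : Type*} [Group P] [Finite P] [IsCyclic P]
    (A B : Subgroup P) (h : Nat.card A ∣ Nat.card B) : A ≤ B := by
  classical
  haveI := Fintype.ofFinite P
  intro x hx
  have hx1 : x ^ Nat.card B = 1 := by
    obtain ⟨k, hk⟩ := h
    have h0 : x ^ Nat.card A = 1 := by
      have h00 := pow_card_eq_one' (G := A) (x := ⟨x, hx⟩)
      have h01 := congrArg Subtype.val h00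
      rwa [Subgroup.coe_pow] at h01
    rw [hk, pow_mul, h0, one_pow]
  have hle : (Finset.univ.filter (fun a : P => a ^ Nat.card B = 1)).card ≤ Nat.card B :=
    IsCyclic.card_pow_eq_one_le Nat.card_pos
  have hsub : (Finset.univ.filter (fun a : P => a ∈ B)) ⊆
      (Finset.univ.filter (fun a : P => a ^ Nat.card B = 1)) := by
    intro y hy
    simp only [Finset.mem_filter, Finset.mem_univ, true_and] at hy ⊢
    have h00 := pow_card_eq_one' (G := B) (x := ⟨y, hy⟩)
    have h01 := congrArg Subtype.val h00
    rwa [Subgroup.coe_pow] at h01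
  have hcardB : (Finset.univ.filter (fun a : P => a ∈ B)).card = Nat.card B := by
    rw [Nat.card_eq_fintype_card, ← Fintype.card_subtype]
  have heq := Finset.eq_of_subset_of_card_le hsub (by rw [hcardB]; exact hle)
  have hmem : x ∈ Finset.univ.filter (fun a : P => a ∈ B) := by
    rw [heq, Finset.mem_filter]; exact ⟨Finset.mem_univ _, hx1⟩
  exact (Finset.mem_filter.mp hmem).2

/-- Subgroups of a finite cyclic `p`-group are totally ordered. -/
theorem le_total_of_isCyclic_of_isPGroup {P : Type*} [Group P] [Finite P] [IsCyclic P]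
    {p : ℕ} [Fact p.Prime] (hP : IsPGroup p P) (A B : Subgroup P) : A ≤ B ∨ B ≤ A := by
  obtain ⟨a, ha⟩ := IsPGroup.iff_card.mp (hP.to_subgroup A)
  obtain ⟨b, hb⟩ := IsPGroup.iff_card.mp (hP.to_subgroup B)
  rcases le_total a b with h | h
  · left
    apply le_of_card_dvd_of_isCyclic
    rw [ha, hb]; exact pow_dvd_pow p h
  · right
    apply le_of_card_dvd_of_isCyclic
    rw [ha, hb]; exact pow_dvd_pow p h

end Cfsg.Agent.Lead
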