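import Mathlib
import Cfsg.Prelude.Def_Solvable
import Cfsg.Agent.Lead.Frobenius

namespace Cfsg.Agent.Lead

open scoped Pointwise

variable {G : Type*} [Group G]

/-- In a Frobenius complement `H`: if `x ≠ 1`, `x ∈ H` and `g⁻¹ x g ∈ H` then `g ∈ H`. -/
theorem frob_mem_of_conj_mem (H : Subgroup G) (hH : Cfsg.IsFrobeniusComplement H) {g x : G}
    (hx : x ∈ H) (hgx : g⁻¹ * x * g ∈ H) (hx1 : x ≠ 1) : g ∈ H := by
  by_contra hg
  have h2 := hH.2.2 g hg
  have h3 : x ∈ H ⊓ MulAut.conj g • H := Subgroup.mem_inf.mpr ⟨hx, mem_conj_smul_iff'.mpr hgx⟩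
  rw [h2, Subgroup.mem_bot] at h3
  exact hx1 h3

theorem frobeniusKernel_conj (H : Subgroup G) {x : G} (hx : x ∈ Cfsg.frobeniusKernel H) (h : G) :
    h * x * h⁻¹ ∈ Cfsg.frobeniusKernel H := by
  by_cases hx1 : x = 1
  · left; rw [hx1]; group
  · exact (frobeniusKernel_conj_mem H (x := x) ⟨hx, hx1⟩ h).1

section Invol

variable (H : Subgroup G) (hH : Cfsg.IsFrobeniusComplement H) (t : G) (ht : t ∈ H) (ht1 : t ≠ 1)
  (ht2 : t * t = 1)

include hH ht ht1 in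
theorem frob_invol_centralizer_le {c : G} (hc : c * t = t * c) : c ∈ H := by
  apply frob_mem_of_conj_mem H hH ht _ ht1
  have e : c⁻¹ * t * c = t := by rw [mul_assoc, ← hc]; group
  rw [e]; exact ht

include hH ht ht1 ht2 in
theorem frob_invol_mul_conj {g : G} (hg : g ∉ H) :
    t * (g * t * g⁻¹) ∈ Cfsg.frobeniusKernel H ∧ t * (g * t * g⁻¹) ≠ 1 := by
  have htinv : t⁻¹ = t := inv_eq_of_mul_eq_one_left ht2
  have hs2 : (g * t * g⁻¹) * (g * t * g⁻¹) = 1 := by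
    have e : (g * t * g⁻¹) * (g * t * g⁻¹) = g * (t * t) * g⁻¹ := by group
    rw [e, ht2]; group
  have hsinv : (g * t * g⁻¹)⁻¹ = g * t * g⁻¹ := inv_eq_of_mul_eq_one_left hs2
  have hne : t * (g * t * g⁻¹) ≠ 1 := by
    intro h
    apply hg
    apply frob_invol_centralizer_le H hH t ht ht1
    have h1 : g * t * g⁻¹ = t := by
      have := eq_inv_of_mul_eq_one_right h
      rw [this, htinv]
    calc g * t = (g * t * g⁻¹) * g := by group
      _ = t * g := by rw [h1]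
  refine ⟨Or.inr ?_, hne⟩
  intro u hu
  rw [mem_conj_smul_iff'] at hu
  -- a := t * s ∈ H^u; t a t⁻¹ = a⁻¹
  have hinv : t * (t * (g * t * g⁻¹)) * t⁻¹ = (t * (g * t * g⁻¹))⁻¹ := by
    rw [mul_inv_rev, hsinv, htinv, ← mul_assoc t t, ht2, one_mul]
  -- u⁻¹ t u ∈ H
  have h1 : u⁻¹ * t * u ∈ H := by
    -- x := u⁻¹ a⁻¹ u ∈ H, and (u⁻¹ t u)⁻¹ x (u⁻¹ t u) ∈ H
    have hx : u⁻¹ * (t * (g * t * g⁻¹))⁻¹ * u ∈ H := by
      have e : u⁻¹ * (t * (g * t * g⁻¹))⁻¹ * u = (u⁻¹ * (t * (g * t * g⁻¹)) * u)⁻¹ := by group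
      rw [e]; exact H.inv_mem hu
    have hx1 : u⁻¹ * (t * (g * t * g⁻¹))⁻¹ * u ≠ 1 := by
      intro h
      apply hne
      have e : (t * (g * t * g⁻¹))⁻¹ = u * (u⁻¹ * (t * (g * t * g⁻¹))⁻¹ * u) * u⁻¹ := by group
      rw [h] at e
      have e' : (t * (g * t * g⁻¹))⁻¹ = 1 := by rw [e]; group
      exact inv_eq_one.mp e'
    apply frob_mem_of_conj_mem H hH hx _ hx1
    have e : (u⁻¹ * t * u)⁻¹ * (u⁻¹ * (t * (g * t * g⁻¹))⁻¹ * u) * (u⁻¹ * t * u) =
        u⁻¹ * (t⁻¹ * (t * (g * t * g⁻¹))⁻¹ * t) * u := by group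
    have e2 : t⁻¹ * (t * (g * t * g⁻¹))⁻¹ * t = t * (g * t * g⁻¹) := by
      rw [← hinv, htinv]
      have : t * (t * (t * (g * t * g⁻¹)) * t) * t = (t * t) * (t * (g * t * g⁻¹)) * (t * t) := by
        group
      rw [this, ht2, one_mul, mul_one]
    rw [e, e2]; exact hu
  have huH : u ∈ H := frob_mem_of_conj_mem H hH ht h1 ht1
  -- then a ∈ H
  have haH : t * (g * t * g⁻¹) ∈ H := by
    have e : t * (g * t * g⁻¹) = u * (u⁻¹ * (t * (g * t * g⁻¹)) * u) * u⁻¹ := by group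
    rw [e]; exact H.mul_mem (H.mul_mem huH hu) (H.inv_mem huH)
  have hsH : g * t * g⁻¹ ∈ H := by
    have e : g * t * g⁻¹ = t⁻¹ * (t * (g * t * g⁻¹)) := by group
    rw [e]; exact H.mul_mem (H.inv_mem ht) haH
  -- s ∈ H ∩ H^g with s ≠ 1 gives g ∈ H
  apply hg
  have hs1 : g * t * g⁻¹ ≠ 1 := by
    intro h
    apply ht1
    have e : t = g⁻¹ * (g * t * g⁻¹) * g := by group
    rw [e, h]; group
  apply frob_mem_of_conj_mem H hH hsH _ hs1
  have e : g⁻¹ * (g * t * g⁻¹) * g = t := by group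
  rw [e]; exact ht

include hH ht ht1 ht2 in
theorem frob_invol_surj [Finite G] {k : G} (hk : k ∈ Cfsg.frobeniusKernel H) (hk1 : k ≠ 1) :
    ∃ g : G, k = t * (g * t * g⁻¹) := by
  classical
  let f : G ⧸ H → Cfsg.frobeniusKernel H := fun q =>
    if hq : q.out ∈ H then ⟨1, Or.inl rfl⟩
    else ⟨t * (q.out * t * q.out⁻¹), (frob_invol_mul_conj H hH t ht ht1 ht2 hq).1⟩
  have hf1 : ∀ q : G ⧸ H, q.out ∈ H → q = ((1 : G) : G ⧸ H) := by
    intro q hq
    rw [← q.out_eq']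
    apply QuotientGroup.eq.mpr
    simpa using H.inv_mem hq
  have hfinj : Function.Injective f := by
    intro q q' hqq
    by_cases hq : q.out ∈ H
    · by_cases hq' : q'.out ∈ H
      · rw [hf1 q hq, hf1 q' hq']
      · exfalso
        simp only [f, dif_pos hq, dif_neg hq'] at hqq
        have h := congrArg Subtype.val hqq
        exact (frob_invol_mul_conj H hH t ht ht1 ht2 hq').2 h.symm
    · by_cases hq' : q'.out ∈ H
      · exfalso
        simp only [f, dif_neg hq, dif_pos hq'] at hqq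
        have h := congrArg Subtype.val hqq
        exact (frob_invol_mul_conj H hH t ht ht1 ht2 hq).2 h
      · simp only [f, dif_neg hq, dif_neg hq'] at hqq
        have h : t * (q.out * t * q.out⁻¹) = t * (q'.out * t * q'.out⁻¹) := congrArg Subtype.val hqq
        have h' : q.out * t * q.out⁻¹ = q'.out * t * q'.out⁻¹ := mul_left_cancel h
        have hc : (q.out⁻¹ * q'.out) * t = t * (q.out⁻¹ * q'.out) := by
          calc (q.out⁻¹ * q'.out) * t = q.out⁻¹ * (q'.out * t * q'.out⁻¹) * q'.out := by group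
            _ = q.out⁻¹ * (q.out * t * q.out⁻¹) * q'.out := by rw [h']
            _ = t * (q.out⁻¹ * q'.out) := by group
        have hmem := frob_invol_centralizer_le H hH t ht ht1 hc
        rw [← q.out_eq', ← q'.out_eq']
        exact QuotientGroup.eq.mpr hmem
  have hcard : Nat.card (G ⧸ H) = Nat.card (Cfsg.frobeniusKernel H) :=
    (card_frobeniusKernel H hH).symm
  have hbij : Function.Bijective f := (Nat.bijective_iff_injective_and_card f).mpr ⟨hfinj, hcard⟩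
  obtain ⟨q, hq⟩ := hbij.2 ⟨k, hk⟩
  by_cases hqH : q.out ∈ H
  · exfalso
    simp only [f, dif_pos hqH] at hq
    exact hk1 (congrArg Subtype.val hq).symm
  · simp only [f, dif_neg hqH] at hq
    exact ⟨q.out, (congrArg Subtype.val hq).symm⟩

include hH ht ht1 ht2 in
/-- The involution `t` inverts every element of the Frobenius kernel. -/
theorem frob_invol_inverts [Finite G] {k : G} (hk : k ∈ Cfsg.frobeniusKernel H) :
    t * k * t⁻¹ = k⁻¹ := by
  have htinv : t⁻¹ = t := inv_eq_of_mul_eq_one_left ht2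
  by_cases hk1 : k = 1
  · rw [hk1]; group
  · obtain ⟨g, rfl⟩ := frob_invol_surj H hH t ht ht1 ht2 hk hk1
    have hs2 : (g * t * g⁻¹) * (g * t * g⁻¹) = 1 := by
      have e : (g * t * g⁻¹) * (g * t * g⁻¹) = g * (t * t) * g⁻¹ := by group
      rw [e, ht2]; group
    have hsinv : (g * t * g⁻¹)⁻¹ = g * t * g⁻¹ := inv_eq_of_mul_eq_one_left hs2
    rw [mul_inv_rev, hsinv, htinv, ← mul_assoc t t, ht2, one_mul]

include hH ht ht1 ht2 in
theorem frob_invol_conj_inverts [Finite G] (u : G) {k : G} (hk : k ∈ Cfsg.frobeniusKernel H) :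
    (u * t * u⁻¹) * k * (u * t * u⁻¹)⁻¹ = k⁻¹ := by
  have h1 := frob_invol_inverts H hH t ht ht1 ht2 (frobeniusKernel_conj H hk u⁻¹)
  rw [inv_inv] at h1
  have e : (u * t * u⁻¹) * k * (u * t * u⁻¹)⁻¹ = u * (t * (u⁻¹ * k * u) * t⁻¹) * u⁻¹ := by group
  rw [e, h1]; group

include hH ht ht1 ht2 in
theorem frob_invol_kernel_comm [Finite G] {x y : G} (hx : x ∈ Cfsg.frobeniusKernel H)
    (hy : y ∈ Cfsg.frobeniusKernel H) : x * y = y * x := by
  by_cases hx1 : x = 1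
  · rw [hx1]; group
  · obtain ⟨g, rfl⟩ := frob_invol_surj H hH t ht ht1 ht2 hx hx1
    have h1 := frob_invol_conj_inverts H hH t ht ht1 ht2 g hy
    have h2 := frob_invol_inverts H hH t ht ht1 ht2 (k := y⁻¹) (by
      have := frob_invol_inverts H hH t ht ht1 ht2 hy
      rw [← this]; exact frobeniusKernel_conj H hy t)
    rw [inv_inv] at h2
    -- t * (s * y * s⁻¹) * t⁻¹ = t * y⁻¹ * t⁻¹ = y
    have h3 : t * (g * t * g⁻¹) * y * (t * (g * t * g⁻¹))⁻¹ = y := by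
      have e : t * (g * t * g⁻¹) * y * (t * (g * t * g⁻¹))⁻¹ =
          t * ((g * t * g⁻¹) * y * (g * t * g⁻¹)⁻¹) * t⁻¹ := by group
      rw [e, h1, h2]
    calc t * (g * t * g⁻¹) * y = (t * (g * t * g⁻¹) * y * (t * (g * t * g⁻¹))⁻¹) * (t * (g * t * g⁻¹)) := by
          group
      _ = y * (t * (g * t * g⁻¹)) := by rw [h3]

include hH ht ht1 ht2 in
/-- With an involution in the complement, the Frobenius kernel is closed under multiplication. -/
theorem frob_invol_kernel_mul [Finite G] {x y : G} (hx : x ∈ Cfsg.frobeniusKernel H)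
    (hy : y ∈ Cfsg.frobeniusKernel H) : x * y ∈ Cfsg.frobeniusKernel H := by
  by_contra hxy
  have hxy1 : x * y ≠ 1 := fun h => hxy (Or.inl h)
  have hex : ∃ u : G, x * y ∈ MulAut.conj u • H := by
    by_contra hcon
    push Not at hcon
    exact hxy (Or.inr hcon)
  obtain ⟨u, hu⟩ := hex
  rw [mem_conj_smul_iff'] at hu
  -- every conjugate of t inverts x * y
  have hinv : ∀ w : G, (w * t * w⁻¹) * (x * y) * (w * t * w⁻¹)⁻¹ = (x * y)⁻¹ := by
    intro w
    have h1 := frob_invol_conj_inverts H hH t ht ht1 ht2 w hx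
    have h2 := frob_invol_conj_inverts H hH t ht ht1 ht2 w hy
    have e : (w * t * w⁻¹) * (x * y) * (w * t * w⁻¹)⁻¹ =
        ((w * t * w⁻¹) * x * (w * t * w⁻¹)⁻¹) * ((w * t * w⁻¹) * y * (w * t * w⁻¹)⁻¹) := by group
    rw [e, h1, h2, mul_inv_rev, frob_invol_kernel_comm H hH t ht ht1 ht2
      (x := x⁻¹) (y := y⁻¹) ?_ ?_]
    · have := frob_invol_inverts H hH t ht ht1 ht2 hx
      rw [← this]; exact frobeniusKernel_conj H hx t
    · have := frob_invol_inverts H hH t ht ht1 ht2 hy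
      rw [← this]; exact frobeniusKernel_conj H hy t
  -- choose w with u⁻¹ w ∉ H
  obtain ⟨g₀, hg₀⟩ : ∃ g₀ : G, g₀ ∉ H := by
    by_contra hcon
    push Not at hcon
    exact hH.2.1 (eq_top_iff.mpr fun g _ => hcon g)
  -- z := u⁻¹ (xy)⁻¹ u ∈ H, nontrivial
  have hz : u⁻¹ * (x * y)⁻¹ * u ∈ H := by
    have e : u⁻¹ * (x * y)⁻¹ * u = (u⁻¹ * (x * y) * u)⁻¹ := by group
    rw [e]; exact H.inv_mem hu
  have hz1 : u⁻¹ * (x * y)⁻¹ * u ≠ 1 := by
    intro h
    apply hxy1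
    have e : (x * y)⁻¹ = u * (u⁻¹ * (x * y)⁻¹ * u) * u⁻¹ := by group
    rw [h] at e
    have e' : (x * y)⁻¹ = 1 := by rw [e]; group
    exact inv_eq_one.mp e'
  -- s'' := (u g₀) t (u g₀)⁻¹ ; then u⁻¹ s'' u = g₀ t g₀⁻¹ ∈ H
  have h1 : g₀ * t * g₀⁻¹ ∈ H := by
    apply frob_mem_of_conj_mem H hH hz _ hz1
    have h2 := hinv (u * g₀)
    have e : (g₀ * t * g₀⁻¹)⁻¹ * (u⁻¹ * (x * y)⁻¹ * u) * (g₀ * t * g₀⁻¹) =
        u⁻¹ * ((u * g₀ * t * (u * g₀)⁻¹)⁻¹ * (x * y)⁻¹ * (u * g₀ * t * (u * g₀)⁻¹)) * u := by group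
    have e2 : (u * g₀ * t * (u * g₀)⁻¹)⁻¹ * (x * y)⁻¹ * (u * g₀ * t * (u * g₀)⁻¹) = x * y := by
      rw [← h2]; group
    rw [e, e2]; exact hu
  -- then t ∈ H and g₀⁻¹ (g₀ t g₀⁻¹) g₀ = t ∈ H force g₀ ∈ H
  apply hg₀
  have hs1 : g₀ * t * g₀⁻¹ ≠ 1 := by
    intro h
    apply ht1
    have e : t = g₀⁻¹ * (g₀ * t * g₀⁻¹) * g₀ := by group
    rw [e, h]; group
  apply frob_mem_of_conj_mem H hH h1 _ hs1
  have e : g₀⁻¹ * (g₀ * t * g₀⁻¹) * g₀ = t := by group
  rw [e]; exact ht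

end Invol

end Cfsg.Agent.Lead
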