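import Mathlib

namespace Cfsg.Agent.Lead

/-- in a Frobenius configuration `G = K H`, every element of the coset `K h` (`h ≠ 1`) is a
`K`-conjugate of `h` -/
theorem frobKH_coset_conj {G : Type*} [Group G] [Finite G] (K H : Subgroup G) [K.Normal]
    (hfpf : ∀ h ∈ H, h ≠ 1 → ∀ k ∈ K, h * k = k * h → k = 1)
    (h : G) (hh : h ∈ H) (hh1 : h ≠ 1) (k' : G) (hk' : k' ∈ K) :
    ∃ u ∈ K, k' * h = u * h * u⁻¹ := by
  have hmem : ∀ u : K, (u : G) * (h * (u : G)⁻¹ * h⁻¹) ∈ K := by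
    intro u
    exact K.mul_mem u.2 (Subgroup.Normal.conj_mem inferInstance _ (K.inv_mem u.2) h)
  let f : K → K := fun u => ⟨(u : G) * (h * (u : G)⁻¹ * h⁻¹), hmem u⟩
  have hinj : Function.Injective f := by
    intro u v huv
    have h1 : (u : G) * (h * (u : G)⁻¹ * h⁻¹) = (v : G) * (h * (v : G)⁻¹ * h⁻¹) :=
      congrArg Subtype.val huv
    have h2 : h * ((v : G)⁻¹ * u) = ((v : G)⁻¹ * u) * h := by
      have h3 : (u : G) * h * (u : G)⁻¹ = (v : G) * h * (v : G)⁻¹ := by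
        have := congrArg (· * h) h1
        simpa [mul_assoc] using this
      calc h * ((v : G)⁻¹ * u) = (v : G)⁻¹ * ((v : G) * h * (v : G)⁻¹) * u := by group
        _ = (v : G)⁻¹ * ((u : G) * h * (u : G)⁻¹) * u := by rw [h3]
        _ = ((v : G)⁻¹ * u) * h := by group
    have h4 := hfpf h hh hh1 _ (K.mul_mem (K.inv_mem v.2) u.2) h2
    apply Subtype.ext
    calc (u : G) = (v : G) * ((v : G)⁻¹ * u) := by group
      _ = v := by rw [h4, mul_one]
  have hsurj : Function.Surjective f := Finite.injective_iff_surjective.mp hinj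
  obtain ⟨u, hu⟩ := hsurj ⟨k', hk'⟩
  refine ⟨u, u.2, ?_⟩
  have h1 : (u : G) * (h * (u : G)⁻¹ * h⁻¹) = k' := congrArg Subtype.val hu
  rw [← h1]; group

/-- in a Frobenius configuration `G = K H`, the centralizer of a non-identity element of the
kernel is inside the kernel -/
theorem frobKH_centralizer_le {G : Type*} [Group G] [Finite G] (K H : Subgroup G) [K.Normal]
    (hKH : K ⊓ H = ⊥) (hKH' : K ⊔ H = ⊤)
    (hfpf : ∀ h ∈ H, h ≠ 1 → ∀ k ∈ K, h * k = k * h → k = 1)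
    (x : G) (hx : x ∈ K) (hx1 : x ≠ 1) (y : G) (hy : y * x = x * y) : y ∈ K := by
  have hytop : y ∈ K ⊔ H := by rw [hKH']; trivial
  obtain ⟨k', hk', h', hh', rfl⟩ := Subgroup.mem_sup_of_normal_left.mp hytop
  by_cases hh1 : h' = 1
  · rw [hh1, mul_one]; exact hk'
  · exfalso
    obtain ⟨u, hu, hconj⟩ := frobKH_coset_conj K H hfpf h' hh' hh1 k' hk'
    rw [hconj] at hy
    have h1 : h' * (u⁻¹ * x * u) = (u⁻¹ * x * u) * h' := by
      calc h' * (u⁻¹ * x * u) = u⁻¹ * (u * h' * u⁻¹ * x) * u := by group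
        _ = u⁻¹ * (x * (u * h' * u⁻¹)) * u := by rw [hy]
        _ = (u⁻¹ * x * u) * h' := by group
    have hmem : u⁻¹ * x * u ∈ K := by
      have := Subgroup.Normal.conj_mem (inferInstance : K.Normal) x hx u⁻¹
      simpa using this
    have h2 := hfpf h' hh' hh1 _ hmem h1
    apply hx1
    calc x = u * (u⁻¹ * x * u) * u⁻¹ := by group
      _ = 1 := by rw [h2]; group

end Cfsg.Agent.Lead
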