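import Mathlib

namespace Cfsg.Agent.Lead

/-- a sum over a finite type with an involution having exactly one fixed point -/
theorem sum_involution_unique_fixed {α : Type*} [Fintype α] (T : α → α)
    (hT : ∀ a, T (T a) = a) (a₀ : α) (h0 : T a₀ = a₀) (hfix : ∀ a, T a = a → a = a₀)
    (F : α → ℕ) (hF : ∀ a, F (T a) = F a) :
    ∃ S : Finset α, ∑ a : α, F a = F a₀ + 2 * ∑ a ∈ S, F a := by
  classical
  let e : α → ℕ := fun g => (Fintype.equivFin α g : ℕ)
  have he : Function.Injective e := fun a b h =>
    (Fintype.equivFin α).injective (Fin.ext h)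
  refine ⟨Finset.univ.filter (fun g => e g < e (T g)), ?_⟩
  have h1 : ∀ g : α, F g = (if e g < e (T g) then F g else 0)
      + (if e (T g) < e g then F g else 0) + (if g = a₀ then F g else 0) := by
    intro g
    rcases lt_trichotomy (e g) (e (T g)) with h | h | h
    · have hg1 : g ≠ a₀ := by rintro rfl; rw [h0] at h; exact lt_irrefl _ h
      simp [h, not_lt_of_gt h, hg1]
    · have hg1 : g = a₀ := hfix g (he h).symm
      subst hg1
      simp [h0]
    · have hg1 : g ≠ a₀ := by rintro rfl; rw [h0] at h; exact lt_irrefl _ h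
      simp [h, not_lt_of_gt h, hg1]
  let Te : α ≃ α := ⟨T, T, hT, hT⟩
  have h2 : ∑ g : α, (if e (T g) < e g then F g else 0)
      = ∑ g : α, (if e g < e (T g) then F g else 0) := by
    refine Fintype.sum_equiv Te _ _ (fun g => ?_)
    change (if e (T g) < e g then F g else 0) = if e (T g) < e (T (T g)) then F (T g) else 0
    rw [hT, hF]
  calc ∑ g : α, F g
      = ∑ g : α, ((if e g < e (T g) then F g else 0) + (if e (T g) < e g then F g else 0)
          + (if g = a₀ then F g else 0)) := Finset.sum_congr rfl (fun g _ => h1 g)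
    _ = ∑ g : α, (if e g < e (T g) then F g else 0) + ∑ g : α, (if e (T g) < e g then F g else 0)
          + ∑ g : α, (if g = a₀ then F g else 0) := by
        rw [Finset.sum_add_distrib, Finset.sum_add_distrib]
    _ = F a₀ + 2 * ∑ g ∈ Finset.univ.filter (fun g => e g < e (T g)), F g := by
        rw [h2, Finset.sum_ite_eq' Finset.univ a₀ F, Finset.sum_filter]
        simp only [Finset.mem_univ, if_true]
        ring

end Cfsg.Agent.Lead
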