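import Mathlib

namespace Cfsg.Agent.Lead

variable {G : Type*} [Group G]

/-- An automorphism `ψ` with `ψ ^ q = 1` (`q` prime) of a finite group whose order has no proper
divisor congruent to it mod `q` is trivial. -/
theorem mulAut_eq_one_of_pow_prime {H : Type*} [Group H] [Finite H] (ψ : MulAut H) (q : ℕ)
    [Fact q.Prime] (hψ : ψ ^ q = 1)
    (hdiv : ∀ d, d ∣ Nat.card H → d ≡ Nat.card H [MOD q] → d = Nat.card H) : ψ = 1 := by
  have hPG : IsPGroup q (Subgroup.zpowers ψ) := by
    intro g
    refine ⟨1, ?_⟩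
    obtain ⟨g, hg⟩ := g
    obtain ⟨i, rfl⟩ := Subgroup.mem_zpowers_iff.mp hg
    apply Subtype.ext
    simp only [pow_one, Subgroup.coe_pow, Subgroup.coe_one]
    rw [← zpow_natCast, ← zpow_mul, mul_comm, zpow_mul, zpow_natCast, hψ, one_zpow]
  have hmod := hPG.card_modEq_card_fixedPoints H
  let F : Subgroup H :=
    { carrier := MulAction.fixedPoints (Subgroup.zpowers ψ) H
      mul_mem' := by
        intro a b ha hb g
        rw [smul_mul', ha g, hb g]
      one_mem' := by intro g; exact smul_one g
      inv_mem' := by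
        intro a ha g
        rw [smul_inv', ha g] }
  have hF : Nat.card F = Nat.card (MulAction.fixedPoints (Subgroup.zpowers ψ) H) := rfl
  have h1 : Nat.card F = Nat.card H :=
    hdiv _ (Subgroup.card_subgroup_dvd_card F) (by rw [hF]; exact hmod.symm)
  have hFtop : F = ⊤ := Subgroup.eq_top_of_card_eq F h1
  ext h
  have hh : h ∈ F := hFtop ▸ Subgroup.mem_top h
  exact hh ⟨ψ, Subgroup.mem_zpowers ψ⟩

/-- Any automorphism of a finite group `H` has order dividing `|H|!`. -/
theorem mulAut_pow_factorial_card {H : Type*} [Group H] [Finite H] (φ : MulAut H) :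
    φ ^ (Nat.card H).factorial = 1 := by
  have h1 : (MulAut.toPerm H φ) ^ (Nat.card H).factorial = 1 := by
    rw [← Nat.card_perm]; exact pow_card_eq_one'
  rw [← map_pow] at h1
  ext h
  have h2 := congrArg (fun σ => σ h) h1
  exact h2

variable [Finite G] {p : ℕ} [Fact p.Prime]

/-- If the conjugation automorphism induced by `n ∈ N_G(T)` on `T` has `k`-th power trivial,
then `n ^ k` centralises `T`. -/
theorem pow_mem_centralizer_of_conjNormal_pow (T : Subgroup G) {n : G}
    (hn : n ∈ Subgroup.normalizer (T : Set G)) (k : ℕ)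
    (h : (MulAut.conjNormal (H := T.subgroupOf (Subgroup.normalizer (T : Set G)))
      (⟨n, hn⟩ : Subgroup.normalizer (T : Set G))) ^ k = 1) :
    n ^ k ∈ Subgroup.centralizer (T : Set G) := by
  have hTN : T ≤ Subgroup.normalizer (T : Set G) := Subgroup.le_normalizer
  rw [← map_pow] at h
  rw [Subgroup.mem_centralizer_iff]
  intro t ht
  have h2 := congrArg (fun σ => σ (⟨⟨t, hTN ht⟩, Subgroup.mem_subgroupOf.mpr ht⟩ :
    T.subgroupOf (Subgroup.normalizer (T : Set G)))) h
  have h3 := congrArg (fun z : (T.subgroupOf (Subgroup.normalizer (T : Set G))) =>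
    ((z : Subgroup.normalizer (T : Set G)) : G)) h2
  have h3' : n ^ k * t * (n ^ k)⁻¹ = t := h3
  calc t * n ^ k = (n ^ k * t * (n ^ k)⁻¹) * n ^ k := by rw [h3']
    _ = n ^ k * t := by group

/-- If some power `n ^ M` (with `M` prime to `[N_G(T) : T]`) of each `n ∈ N_G(T)` centralises the
abelian Sylow subgroup `T`, then `N_G(T) ≤ C_G(T)`. -/
theorem normalizer_le_centralizer_of_pow (T : Sylow p G) [IsMulCommutative T] (M : ℕ)
    (hM : Nat.Coprime M ((T : Subgroup G).subgroupOf (Subgroup.normalizer (T : Set G))).index)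
    (h : ∀ n ∈ Subgroup.normalizer (T : Set G), n ^ M ∈ Subgroup.centralizer (T : Set G)) :
    Subgroup.normalizer (T : Set G) ≤ Subgroup.centralizer (T : Set G) := by
  intro n hn
  haveI hHn : ((T : Subgroup G).subgroupOf (Subgroup.normalizer (T : Set G))).Normal :=
    Subgroup.normal_in_normalizer
  have hj : n ^ ((T : Subgroup G).subgroupOf (Subgroup.normalizer (T : Set G))).index ∈
      Subgroup.centralizer (T : Set G) := by
    have h1 : ((⟨n, hn⟩ : Subgroup.normalizer (T : Set G)) :
        Subgroup.normalizer (T : Set G) ⧸ (T : Subgroup G).subgroupOf (Subgroup.normalizer (T : Set G)))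
        ^ ((T : Subgroup G).subgroupOf (Subgroup.normalizer (T : Set G))).index = 1 := by
      rw [Subgroup.index_eq_card]; exact pow_card_eq_one'
    rw [← QuotientGroup.mk_pow, QuotientGroup.eq_one_iff, Subgroup.mem_subgroupOf] at h1
    exact T.le_centralizer h1
  obtain ⟨a, b, hab⟩ := Nat.isCoprime_iff_coprime.mpr hM
  have hn' : n = (n ^ M) ^ a * (n ^ ((T : Subgroup G).subgroupOf
      (Subgroup.normalizer (T : Set G))).index) ^ b := by
    rw [← zpow_natCast n M, ← zpow_natCast n ((T : Subgroup G).subgroupOf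
      (Subgroup.normalizer (T : Set G))).index, ← zpow_mul, ← zpow_mul, ← zpow_add]
    have e : (M : ℤ) * a + (((T : Subgroup G).subgroupOf
      (Subgroup.normalizer (T : Set G))).index : ℤ) * b = 1 := by
      rw [← hab]; ring
    rw [e, zpow_one]
  rw [hn']
  exact Subgroup.mul_mem _ (Subgroup.zpow_mem _ (h n hn) a) (Subgroup.zpow_mem _ hj b)

/-- The index `[N_G(T) : T]` is coprime to a prime `q` not dividing `[G : T]`. -/
theorem coprime_index_normalizer (T : Sylow p G) (q : ℕ) (hq : q.Prime)
    (h : ¬ q ∣ (T : Subgroup G).index) :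
    Nat.Coprime q ((T : Subgroup G).subgroupOf (Subgroup.normalizer (T : Set G))).index := by
  have hTN : (T : Subgroup G) ≤ Subgroup.normalizer (T : Set G) := Subgroup.le_normalizer
  have hdvd : ((T : Subgroup G).subgroupOf (Subgroup.normalizer (T : Set G))).index ∣
      (T : Subgroup G).index := Subgroup.relIndex_dvd_index_of_le hTN
  exact (Nat.Prime.coprime_iff_not_dvd hq).mpr (fun h' => h (h'.trans hdvd))

end Cfsg.Agent.Lead
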