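import Mathlib

namespace Cfsg.Agent.Lead

variable {G : Type*} [Group G]

/-- Elements of the join of two elementwise commuting subgroups are products. -/
theorem exists_mul_of_mem_sup_of_commute (A B : Subgroup G)
    (hcomm : ∀ a ∈ A, ∀ b ∈ B, a * b = b * a) {x : G} (hx : x ∈ A ⊔ B) :
    ∃ a ∈ A, ∃ b ∈ B, x = a * b := by
  rw [Subgroup.sup_eq_closure] at hx
  induction hx using Subgroup.closure_induction with
  | mem x hx =>
    rcases hx with hx | hx
    · exact ⟨x, hx, 1, B.one_mem, (mul_one x).symm⟩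
    · exact ⟨1, A.one_mem, x, hx, (one_mul x).symm⟩
  | one => exact ⟨1, A.one_mem, 1, B.one_mem, (mul_one 1).symm⟩
  | mul x y _ _ hx hy =>
    obtain ⟨a, ha, b, hb, rfl⟩ := hx
    obtain ⟨a', ha', b', hb', rfl⟩ := hy
    refine ⟨a * a', A.mul_mem ha ha', b * b', B.mul_mem hb hb', ?_⟩
    have h1 := hcomm a' ha' b hb
    calc a * b * (a' * b') = a * (b * a') * b' := by simp only [mul_assoc]
      _ = a * (a' * b) * b' := by rw [h1]
      _ = a * a' * (b * b') := by simp only [mul_assoc]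
  | inv x _ hx =>
    obtain ⟨a, ha, b, hb, rfl⟩ := hx
    refine ⟨a⁻¹, A.inv_mem ha, b⁻¹, B.inv_mem hb, ?_⟩
    have h1 := hcomm a ha b hb
    rw [mul_inv_rev]
    have h2 : b⁻¹ * a⁻¹ = (a * b)⁻¹ := by rw [mul_inv_rev]
    have h3 : a⁻¹ * b⁻¹ = (b * a)⁻¹ := by rw [mul_inv_rev]
    rw [h2, h3, h1]

end Cfsg.Agent.Lead
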