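import Mathlib
import Cfsg.Agent.Lead.HallConverse

namespace Cfsg.Agent.Lead

open scoped Pointwise

universe u

theorem exists_subgroup_of_mul_comm {G : Type u} [Group G] (A B : Subgroup G)
    (h : (A : Set G) * (B : Set G) = (B : Set G) * (A : Set G)) :
    ∃ J : Subgroup G, (J : Set G) = (A : Set G) * (B : Set G) := by
  refine ⟨{ carrier := (A : Set G) * (B : Set G), mul_mem' := ?_, one_mem' := ?_,
            inv_mem' := ?_ }, rfl⟩
  · rintro x y ⟨a, ha, b, hb, rfl⟩ ⟨a', ha', b', hb', rfl⟩
    have h1 : b * a' ∈ (B : Set G) * (A : Set G) := Set.mul_mem_mul hb ha'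
    rw [← h] at h1
    obtain ⟨a'', ha'', b'', hb'', (h2 : a'' * b'' = b * a')⟩ := h1
    refine ⟨a * a'', mul_mem ha ha'', b'' * b', mul_mem hb'' hb', ?_⟩
    calc a * a'' * (b'' * b') = a * (a'' * b'') * b' := by group
      _ = a * (b * a') * b' := by rw [h2]
      _ = a * b * (a' * b') := by group
  · exact ⟨1, one_mem A, 1, one_mem B, mul_one 1⟩
  · rintro x ⟨a, ha, b, hb, rfl⟩
    have h1 : b⁻¹ * a⁻¹ ∈ (B : Set G) * (A : Set G) := Set.mul_mem_mul (inv_mem hb) (inv_mem ha)
    rw [← h] at h1
    rw [mul_inv_rev]; exact h1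

theorem sylow_system_prod {G : Type u} [Group G] [Finite G]
    (S : (p : Nat.Primes) → Sylow (p : ℕ) G)
    (hS : ∀ p q : Nat.Primes, (S p : Set G) * (S q : Set G) = (S q : Set G) * (S p : Set G))
    (T : Finset Nat.Primes) :
    ∃ J : Subgroup G, (∀ q ∈ T, (S q : Subgroup G) ≤ J) ∧
      Nat.card J = ∏ q ∈ T, Nat.card (S q : Subgroup G) ∧
      ∀ r : Nat.Primes, (S r : Set G) * (J : Set G) = (J : Set G) * (S r : Set G) := by
  classical
  induction T using Finset.induction_on with
  | empty =>
    refine ⟨⊥, by simp, by simp, fun r => ?_⟩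
    simp
  | @insert q T hq ih =>
    obtain ⟨J, hJle, hJcard, hJperm⟩ := ih
    obtain ⟨J', hJ'⟩ := exists_subgroup_of_mul_comm (S q : Subgroup G) J (hJperm q)
    have hqJ' : (S q : Subgroup G) ≤ J' := by
      intro x hx
      have : x ∈ (J' : Set G) := by rw [hJ']; exact ⟨x, hx, 1, one_mem J, mul_one x⟩
      exact this
    have hJJ' : J ≤ J' := by
      intro x hx
      have : x ∈ (J' : Set G) := by rw [hJ']; exact ⟨1, one_mem _, x, hx, one_mul x⟩
      exact this
    refine ⟨J', ?_, ?_, ?_⟩
    · intro r hr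
      rcases Finset.mem_insert.mp hr with rfl | hr
      · exact hqJ'
      · exact (hJle r hr).trans hJJ'
    · rw [Finset.prod_insert hq]
      have hle : Nat.card J' ≤ Nat.card (S q : Subgroup G) * Nat.card J := by
        have : Nat.card J' = Nat.card (((S q : Subgroup G) : Set G) * (J : Set G) : Set G) := by
          rw [← hJ']; rfl
        rw [this]; exact Set.natCard_mul_le
      have hcop : (Nat.card (S q : Subgroup G)).Coprime (Nat.card J) := by
        rw [hJcard, Nat.coprime_prod_right_iff]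
        intro r hr
        have : Fact (q : ℕ).Prime := ⟨q.2⟩
        have : Fact (r : ℕ).Prime := ⟨r.2⟩
        rw [show Nat.card (S q : Subgroup G) = _ from (S q).card_eq_multiplicity,
          show Nat.card (S r : Subgroup G) = _ from (S r).card_eq_multiplicity]
        apply Nat.Coprime.pow
        have hne : (q : ℕ) ≠ (r : ℕ) := fun h => hq (by rw [Subtype.ext h]; exact hr)
        exact (Nat.coprime_primes q.2 r.2).mpr hne
      have hdvd : Nat.card (S q : Subgroup G) * Nat.card J ∣ Nat.card J' :=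
        Nat.Coprime.mul_dvd_of_dvd_of_dvd hcop (Subgroup.card_dvd_of_le hqJ')
          (Subgroup.card_dvd_of_le hJJ')
      rw [← hJcard]
      exact le_antisymm hle (Nat.le_of_dvd Nat.card_pos hdvd)
    · intro r
      rw [hJ']
      have e1 : (S r : Set G) * (((S q : Subgroup G) : Set G) * (J : Set G))
          = (S r : Set G) * (S q : Set G) * (J : Set G) := by rw [mul_assoc]; rfl
      have e2 : ((S q : Subgroup G) : Set G) * (J : Set G) * (S r : Set G)
          = (S q : Set G) * ((J : Set G) * (S r : Set G)) := by rw [mul_assoc]; rfl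
      rw [e1, e2, hS r q, mul_assoc, hJperm r]

/-- a group with a Sylow system has `p`-complements -/
theorem complements_of_sylow_system {G : Type u} [Group G] [Finite G]
    (S : (p : Nat.Primes) → Sylow (p : ℕ) G)
    (hS : ∀ p q : Nat.Primes, (S p : Set G) * (S q : Set G) = (S q : Set G) * (S p : Set G))
    (p : ℕ) (hp : p.Prime) : ∃ H : Subgroup G, H.index = p ^ (Nat.card G).factorization p := by
  classical
  let T : Finset Nat.Primes := ((Nat.card G).primeFactors.erase p).subtype Nat.Prime
  obtain ⟨J, hJle, hJcard, -⟩ := sylow_system_prod S hS T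
  refine ⟨J, ?_⟩
  have hG0 : Nat.card G ≠ 0 := Nat.card_pos.ne'
  have hidx0 : J.index ≠ 0 := Subgroup.index_ne_zero_of_finite
  have honly : ∀ {d : ℕ}, d.Prime → d ∣ J.index → d = p := by
    intro d hd hdvd
    by_contra hne
    have hdG : d ∣ Nat.card G := hdvd.trans (Subgroup.index_dvd_card J)
    have hmem : (⟨d, hd⟩ : Nat.Primes) ∈ T := by
      show (⟨d, hd⟩ : {x // Nat.Prime x}) ∈
        Finset.subtype Nat.Prime ((Nat.card G).primeFactors.erase p)
      rw [Finset.mem_subtype]
      exact Finset.mem_erase.mpr ⟨hne, Nat.mem_primeFactors.mpr ⟨hd, hdG, hG0⟩⟩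
    have h1 := hJle _ hmem
    have : Fact d.Prime := ⟨hd⟩
    have h2 : ¬ d ∣ (S ⟨d, hd⟩ : Subgroup G).index := (S ⟨d, hd⟩).not_dvd_index
    exact h2 (hdvd.trans (Subgroup.index_dvd_of_le h1))
  have hpow := Nat.eq_prime_pow_of_unique_prime_dvd hidx0 honly
  have hcopJ : (Nat.card J).Coprime p := by
    rw [hJcard, Nat.coprime_prod_left_iff]
    intro q hq
    have hq' : (q : ℕ) ∈ (Nat.card G).primeFactors.erase p :=
      (Finset.mem_subtype (p := Nat.Prime) (s := (Nat.card G).primeFactors.erase p)).mp hq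
    have hqp : (q : ℕ) ≠ p := (Finset.mem_erase.mp hq').1
    have : Fact (q : ℕ).Prime := ⟨q.2⟩
    rw [show Nat.card (S q : Subgroup G) = _ from (S q).card_eq_multiplicity]
    exact Nat.Coprime.pow_left _ ((Nat.coprime_primes q.2 hp).mpr hqp)
  obtain ⟨m, hm⟩ : ∃ m, m = J.index.primeFactorsList.length := ⟨_, rfl⟩
  rw [← hm] at hpow
  have hfac : (Nat.card G).factorization p = m := by
    rw [← J.card_mul_index, Nat.factorization_mul Nat.card_pos.ne' hidx0, Finsupp.add_apply,
      Nat.factorization_eq_zero_of_not_dvd ((Nat.Prime.coprime_iff_not_dvd hp).mp hcopJ.symm),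
      zero_add, hpow, hp.factorization_pow, Finsupp.single_apply, if_pos rfl]
  rw [hfac]; exact hpow

end Cfsg.Agent.Lead
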